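import Cfsg.Agent.Lib.Chev.Group

/-! Unipotent subgroups, the Bruhat decomposition and centralizers of torus elements. -/

set_option autoImplicit false

namespace CfsgLib.Chev
open Matrix Subgroup Finset

namespace RD
variable {ι Φ : Type} [Fintype ι] [DecidableEq ι] [Fintype Φ] [DecidableEq Φ] {D : RD ι Φ}
  {F : Type*} [Field F]

variable (D)

/-- Closed sets of positive roots. -/
def Cl (S : Finset Φ) : Prop :=
  ∃ Γ : AddSubsemigroup (ι → ℤ), (∀ μ ∈ Γ, 0 < D.fv ⬝ᵥ μ) ∧ ∀ r, r ∈ S ↔ D.wt r ∈ Γ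

/-- Positive roots. -/
def Pos : Finset Φ := univ.filter fun r => 0 < D.ht r

/-- Negative roots. -/
def Ng : Finset Φ := univ.filter fun r => D.ht r < 0

/-- Positive roots kept positive. -/
def Sp (w : Equiv.Perm Φ) : Finset Φ := D.Pos.filter fun r => 0 < D.ht (w r)

/-- Positive roots made negative. -/
def Sm (w : Equiv.Perm Φ) : Finset Φ := D.Pos.filter fun r => D.ht (w r) < 0

variable {D}

omit [DecidableEq ι] [DecidableEq Φ] in
theorem mem_Pos {r : Φ} : r ∈ D.Pos ↔ 0 < D.ht r := by simp [Pos]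

omit [DecidableEq ι] [DecidableEq Φ] in
theorem mem_Ng {r : Φ} : r ∈ D.Ng ↔ D.ht r < 0 := by simp [Ng]

/-- The open half space of an additive functional. -/
def hs (f : (ι → ℤ) →+ ℤ) : AddSubsemigroup (ι → ℤ) where
  carrier := {μ | 0 < f μ}
  add_mem' h h' := by simp only [Set.mem_setOf_eq, map_add] at *; omega

variable (D) in
/-- The height functional. -/
def fh : (ι → ℤ) →+ ℤ := AddMonoidHom.mk' (D.fv ⬝ᵥ ·) (dotProduct_add _)

omit [DecidableEq ι] [DecidableEq Φ] in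
theorem cl_Pos : D.Cl D.Pos := ⟨hs D.fh, fun _ h => h, fun _ => mem_Pos⟩

namespace Good
variable (G : D.Good)

variable (F) in
/-- The subgroup generated by the root subgroups of a set of roots. -/
def U (S : Finset Φ) : Subgroup (GL (ι ⊕ Φ) F) := closure {g | ∃ r ∈ S, ∃ a, g = G.x r a}

variable {G} {g m m' u u' y y' : GL (ι ⊕ Φ) F} {w w' : Equiv.Perm Φ} {c c' : Φ → Fˣ}
  {S S' : Finset Φ}

theorem cl_Sp (hw : w ∈ G.Wg) : D.Cl (D.Sp w) := by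
  obtain ⟨L, h⟩ := W_lin hw
  exact ⟨hs D.fh ⊓ hs (D.fh.comp L), fun _ h => h.1, fun r => by
    rw [Sp, mem_filter, mem_Pos, ht, ht, h]; rfl⟩

theorem cl_Sm (hw : w ∈ G.Wg) : D.Cl (D.Sm w) := by
  obtain ⟨L, h⟩ := W_lin hw
  exact ⟨hs D.fh ⊓ hs (-D.fh.comp L), fun _ h => h.1, fun r => by
    rw [Sm, mem_filter, mem_Pos, ht, ht, h, ← neg_pos (a := _ ⬝ᵥ L _)]; rfl⟩

theorem x_mem_U {r : Φ} (h : r ∈ S) (a : F) : G.x r a ∈ G.U F S := subset_closure ⟨r, h, a, rfl⟩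

theorem U_ind {P : GL (ι ⊕ Φ) F → Prop} (h1 : P 1)
    (h : ∀ r ∈ S, ∀ a, ∀ g ∈ G.U F S, P g → P (G.x r a * g)) (hg : g ∈ G.U F S) : P g := by
  induction hg using closure_induction_left with
  | one => exact h1
  | mul_left x hx y hy ih => obtain ⟨r, hr, a, rfl⟩ := hx; exact h r hr a y hy ih
  | inv_mul_cancel x hx y hy ih =>
    obtain ⟨r, hr, a, rfl⟩ := hx; exact G.x_neg r a ▸ h r hr _ y hy ih

theorem U_mono (h : S ⊆ S') : G.U F S ≤ G.U F S' :=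
  closure_mono fun _ ⟨r, hr, h'⟩ => ⟨r, h hr, h'⟩

theorem U_le : G.U F S ≤ G.G0 F := closure_mono fun _ ⟨r, _, h⟩ => ⟨r, h⟩

theorem sup_U {Γ : AddSubsemigroup (ι → ℤ)} (h : ∀ r ∈ S, D.wt r ∈ Γ) (hg : g ∈ G.U F S) :
    D.Sup Γ (g.1 - 1) :=
  U_ind (P := fun g => D.Sup Γ (g.1 - 1)) (fun _ _ h => by simp at h)
    (fun r hr a _ _ h' => (G.sup_X (h r hr) a).mul_sub_one h') hg

theorem Mon.conj_U (h : G.Mon m w c) (hS : ∀ r ∈ S, w r ∈ S') (hg : g ∈ G.U F S) :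
    m * g * m⁻¹ ∈ G.U F S' :=
  U_ind (P := fun g => m * g * m⁻¹ ∈ G.U F S') (by simp) (fun r hr a g _ h' => by
    rw [← mul_assoc, h.conj, mul_assoc, mul_assoc, ← mul_assoc m]
    exact mul_mem (x_mem_U (hS r hr) _) h') hg

theorem Mon.conj_Sp (h : G.Mon m w c) (hg : g ∈ G.U F (D.Sp w)) : m * g * m⁻¹ ∈ G.U F D.Pos :=
  h.conj_U (fun _ h => mem_Pos.2 (mem_filter.1 h).2) hg

theorem Mon.conj_Sm (h : G.Mon m w c) (hg : g ∈ G.U F (D.Sm w)) : m * g * m⁻¹ ∈ G.U F D.Ng :=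
  h.conj_U (fun _ h => mem_Ng.2 (mem_filter.1 h).2) hg

theorem hT_conj_U (χ : ι → Fˣ) (hg : g ∈ G.U F S) : D.hT F χ * g * (D.hT F χ)⁻¹ ∈ G.U F S :=
  (G.mon_hT χ).conj_U (fun _ h => h) hg

theorem mem_U_insert {r : Φ} (h : ∀ s ∈ S, ∀ a b : F, G.x r a * G.x s b * G.x r (-a) ∈ G.U F S)
    (hg : g ∈ G.U F (insert r S)) : ∃ a, ∃ u ∈ G.U F S, g = G.x r a * u := by
  refine U_ind (P := fun g => ∃ a, ∃ u ∈ G.U F S, g = G.x r a * u)
    ⟨0, 1, one_mem _, by simp [G.x_zero]⟩ ?_ hg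
  rintro s hs b _ - ⟨a, u, hu, rfl⟩
  rcases mem_insert.1 hs with rfl | hs
  · exact ⟨b + a, u, hu, by rw [G.x_add, mul_assoc]⟩
  · refine ⟨a, _, mul_mem (h s hs (-a) b) hu, ?_⟩
    rw [_root_.neg_neg, G.x_neg]
    group

open Classical in
theorem card_U [Finite F] (χ : ι → Fˣ) (hS : D.Cl S) :
    Nat.card (G.U F S ⊓ centralizer {D.hT F χ} : Subgroup _) =
      Nat.card F ^ #(S.filter fun r => ch χ (D.wt r) = 1) := by
  induction S using induction_on_min_value D.ht with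
  | empty => simp [U]
  | insert r S hr hm ih =>
  obtain ⟨Γ, h1, h2⟩ := hS
  let Γ' : AddSubsemigroup (ι → ℤ) :=
    { carrier := {μ | μ ∈ Γ ∧ D.ht r < D.fv ⬝ᵥ μ}
      add_mem' := fun h h' => ⟨Γ.add_mem h.1 h'.1, by
        rw [dotProduct_add]; linarith [h.2, h1 _ h'.1]⟩ }
  have h3 : ∀ s, s ∈ S ↔ D.wt s ∈ Γ' := fun s =>
    ⟨fun h => ⟨(h2 s).1 (mem_insert_of_mem h), (hm s h).lt_of_ne fun h' =>
      hr (G.ht_inj h' ▸ h)⟩, fun h => (mem_insert.1 ((h2 s).2 h.1)).resolve_left fun h' =>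
      (h' ▸ h.2 : D.ht r < D.ht r).false⟩
  have hr' := (h2 r).1 (mem_insert_self _ _)
  have h4 : ∀ {a a' : F} {u u'}, u ∈ G.U F S → u' ∈ G.U F S → G.x r a * u = G.x r a' * u' →
      a = a' ∧ u = u' := fun {a a' u u'} hu hu' h => by
    have h4 : G.x r (-a' + a) = u' * u⁻¹ := by
      rw [G.x_add, G.x_neg, inv_mul_eq_iff_eq_mul, ← mul_assoc, ← h, mul_inv_cancel_right]
    obtain rfl : a' = a := neg_add_eq_zero.1 (G.eq_zero_of_mul_wt (r := r) fun i => by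
      have := mt (sup_U (fun s => (h3 s).1) (h4 ▸ mul_mem hu' (inv_mem hu)) (.inr r) (.inl i))
        fun h => by simpa [W, ht] using h.2
      simpa [x_entry, -mul_eq_zero] using this)
    exact ⟨rfl, mul_left_cancel h⟩
  have h5 : Nat.card {a : F // ch χ (D.wt r) * a = a} =
      Nat.card F ^ (if ch χ (D.wt r) = 1 then 1 else 0) := by
    split_ifs with h <;> simp [h, mul_left_eq_self₀]
  rw [filter_insert, apply_ite card, card_insert_of_notMem (by simp [hr]),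
    show ∀ n, (if ch χ (D.wt r) = 1 then n + 1 else n) = (if ch χ (D.wt r) = 1 then 1 else 0) + n
      from fun n => by split_ifs <;> omega, pow_add, ← ih ⟨Γ', fun μ h => h1 μ h.1, h3⟩, ← h5,
    ← Nat.card_prod]
  refine (Nat.card_eq_of_bijective (fun z => ⟨G.x r z.1.1 * z.2.1,
    mul_mem (x_mem_U (mem_insert_self _ _) _) (U_mono (subset_insert _ _) z.2.2.1),
    mul_mem (mem_centralizer_singleton_iff.2 (by rw [(G.mon_hT χ).conj, z.1.2]; rfl)) z.2.2.2⟩)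
    ⟨fun z z' h => ?_, fun ⟨g, hg, hc⟩ => ?_⟩).symm
  · obtain ⟨h, h'⟩ := h4 z.2.2.1 z'.2.2.1 (congrArg Subtype.val h)
    exact Prod.ext (Subtype.ext h) (Subtype.ext h')
  · obtain ⟨a, u, hu, rfl⟩ := mem_U_insert (fun s hs a b => by
      obtain ⟨l, hl, h⟩ := G.conj_factor Γ' (fun μ h => h1 μ h.1) (r := r) (fun μ h =>
        ⟨Γ.add_mem h.1 hr', by rw [dotProduct_add]; linarith [h.2, h1 _ hr']⟩) ((h3 s).1 hs) a b
      rw [show G.x r a * G.x s b * G.x r (-a) = (l.map fun z => G.x z.1 z.2).prod from Units.ext (by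
        rw [← Units.coeHom_apply (List.prod _), map_list_prod, List.map_map]; exact h)]
      exact list_prod_mem (List.forall_mem_map.2 fun z hz => x_mem_U ((h3 _).2 (hl z hz)) _)) hg
    have h6 := h4 (a := ch χ (D.wt r) * a) (a' := a) (hT_conj_U χ hu) hu (by
      rw [← mul_inv_eq_iff_eq_mul.2 (mem_centralizer_singleton_iff.1 hc).symm, ← mul_assoc,
        ← mul_assoc, ← mul_assoc, (G.mon_hT χ).conj]; rfl)
    exact ⟨⟨⟨a, h6.1⟩, u, hu, mem_centralizer_singleton_iff.2 (mul_inv_eq_iff_eq_mul.1 h6.2).symm⟩,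
      rfl⟩

theorem card_U' [Finite F] (hS : D.Cl S) : Nat.card (G.U F S) = Nat.card F ^ #S := by
  simpa [ch_one, centralizer_eq_top_iff_subset.2] using card_U (G := G) (1 : ι → Fˣ) hS

variable (h2 : (2 : F) ≠ 0)
include h2

theorem LU (hu : u ∈ G.U F D.Pos) (hy : y ∈ G.U F D.Ng) (h : G.Mon (u * y) w c) :
    u = 1 ∧ y = 1 := by
  have h1 := sup_U (Γ := hs D.fh) (fun _ => mem_Pos.1) hu
  have h3 := sup_U (Γ := hs D.fh) (fun _ => mem_Pos.1) (inv_mem hu)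
  have h4 := sup_U (Γ := hs (-D.fh)) (fun _ h => neg_pos.2 (mem_Ng.1 h)) hy
  simp only [Sup, SetLike.mem_coe, hs, ← SetLike.mem_coe, AddSubsemigroup.coe_set_mk,
    Set.mem_setOf_eq, AddMonoidHom.neg_apply, map_sub] at h1 h3 h4
  have h5 : ∀ s, D.ht (w s) ≤ D.ht s := fun s => by
    have h5 := congrFun (congrArg (u⁻¹.1 *ᵥ ·) (h.col s)) (.inr s)
    simp only [mulVec_mulVec, ← Units.val_mul, inv_mul_cancel_left, mulVec_smul] at h5
    simp only [mulVec_single_one, col_apply, Pi.smul_apply, smul_eq_mul] at h5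
    have h6 := not_not.1 (mt (h4 (.inr s) (.inr s)) (by simp))
    rw [Matrix.sub_apply, one_apply_eq, sub_eq_zero, h5] at h6
    by_cases h7 : s = w s
    · exact (congrArg D.ht h7).ge
    · exact (sub_pos.1 (h3 (.inr s) (.inr (w s)) (by
        rw [Matrix.sub_apply, one_apply_ne (by simpa), sub_zero]
        exact right_ne_zero_of_mul_eq_one h6))).le
  obtain rfl : w = 1 := Equiv.ext fun s => G.ht_inj
    ((sum_eq_sum_iff_of_le fun s _ => h5 s).1 (Equiv.sum_comp w D.ht) s (mem_univ s))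
  obtain ⟨χ, h6⟩ := h.exists_hT h2
  obtain rfl : y = 1 := Units.ext (sub_eq_zero.1 (Matrix.ext fun b' b => by
    by_contra h7
    have h8 := h4 b' b h7
    have h9 : b' ≠ b := fun h => by simp [h] at h8
    rw [eq_inv_mul_of_mul_eq h6, Matrix.sub_apply, Units.val_one, one_apply_ne h9, sub_zero,
      Units.val_mul, coe_hT, mul_diagonal] at h7
    have := h3 b' b (by
      rw [Matrix.sub_apply, one_apply_ne h9, sub_zero]; exact left_ne_zero_of_mul h7)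
    omega))
  refine ⟨Units.ext (sub_eq_zero.1 (Matrix.ext fun b' b => ?_)), rfl⟩
  by_contra h7
  have h9 : b' ≠ b := fun h => by simpa [h] using h1 b' b h7
  rw [mul_one] at h6
  simp [h6, coe_hT, h9] at h7

theorem U_split [Finite F] (hw : w ∈ G.Wg) (hu : u ∈ G.U F D.Pos) :
    ∃ v ∈ G.U F (D.Sp w), ∃ y ∈ G.U F (D.Sm w), u = v * y := by
  obtain ⟨m, -, c, hm⟩ := G.exists_mon (F := F) hw
  obtain ⟨z, hz⟩ := ((Nat.bijective_iff_injective_and_card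
    (fun z : G.U F (D.Sp w) × G.U F (D.Sm w) => (⟨z.1 * z.2, mul_mem (U_mono (filter_subset _ _) z.1.2)
      (U_mono (filter_subset _ _) z.2.2)⟩ : G.U F D.Pos))).2 ⟨fun z z' h => by
    have h1 : z'.1.1⁻¹ * z.1 * (z.2 * z'.2.1⁻¹) = 1 := by
      rw [mul_assoc, ← mul_assoc z.1.1, show z.1.1 * z.2.1 = z'.1 * z'.2 from congrArg Subtype.val h]
      group
    obtain ⟨h3, h4⟩ := LU h2 (hm.conj_Sp (mul_mem (inv_mem z'.1.2) z.1.2))
      (hm.conj_Sm (mul_mem z.2.2 (inv_mem z'.2.2))) (by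
        rw [conj_mul, h1, mul_one, mul_inv_cancel]; exact G.mon_one)
    rw [conj_eq_one_iff] at h3 h4
    exact Prod.ext (Subtype.ext (inv_mul_eq_one.1 h3).symm) (Subtype.ext (mul_inv_eq_one.1 h4)), by
    rw [Nat.card_prod, card_U' (cl_Sp hw), card_U' (cl_Sm hw), card_U' cl_Pos, ← pow_add,
      ← card_filter_add_card_filter_not (s := D.Pos) fun r => 0 < D.ht (w r), Sp, Sm]
    congr 3
    exact filter_congr fun r _ => by have := G.ht_ne (w r); omega⟩).2 ⟨u, hu⟩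
  exact ⟨_, z.1.2, _, z.2.2, (congrArg Subtype.val hz).symm⟩

theorem bruhat_mon [Finite F] (hu : u ∈ G.U F D.Pos) (hu' : u' ∈ G.U F D.Pos) (hm : G.Mon m w c)
    (hm' : G.Mon m' w' c') (hy : y ∈ G.U F D.Pos) (hy' : y' ∈ G.U F D.Pos)
    (h : u * m * y = u' * m' * y') : m = m' := by
  obtain ⟨v, hv, z, hz, h1⟩ := U_split h2 hm.mem (mul_mem hy (inv_mem hy'))
  have h3 : u'⁻¹ * u * (m * v * m⁻¹) * (m * z * m⁻¹) = m' * m⁻¹ := by
    rw [mul_assoc, conj_mul, ← h1, ← mul_assoc, ← mul_assoc, mul_assoc u'⁻¹, ← mul_assoc,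
      mul_assoc u'⁻¹, h]
    group
  obtain ⟨h4, h5⟩ := LU h2 (mul_mem (mul_mem (inv_mem hu') hu) (hm.conj_Sp hv)) (hm.conj_Sm hz)
    (h3 ▸ hm'.mul hm.inv)
  rw [h4, h5, one_mul, eq_comm, mul_inv_eq_one] at h3
  exact h3.symm

theorem bruhat_unique (hu : u ∈ G.U F D.Pos) (hu' : u' ∈ G.U F D.Pos) (hm : G.Mon m w c)
    (hy : y ∈ G.U F (D.Sm w)) (hy' : y' ∈ G.U F (D.Sm w)) (h : u * m * y = u' * m * y') :
    u = u' ∧ y = y' := by
  obtain ⟨h3, h4⟩ := LU h2 (mul_mem (inv_mem hu') hu) (hm.conj_Sm (mul_mem hy (inv_mem hy'))) (by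
    rw [← mul_assoc, ← mul_assoc, mul_assoc u'⁻¹, ← mul_assoc, mul_assoc u'⁻¹, h,
      show u'⁻¹ * (u' * m * y') * y'⁻¹ * m⁻¹ = 1 by group]
    exact G.mon_one)
  rw [conj_eq_one_iff] at h4
  exact ⟨(inv_mul_eq_one.1 h3).symm, mul_inv_eq_one.1 h4⟩

omit h2 in
theorem Mon.x_mul (h : G.Mon m w c) (r : Φ) (a : F) : 
    ∃ b : F, G.x r a * m = m * G.x (w⁻¹ r) b :=
  ⟨(c (w⁻¹ r))⁻¹.1 * a, by rw [← h.inv.conj' r a, inv_inv, mul_assoc m⁻¹, mul_inv_cancel_left]⟩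

omit h2 in
theorem Sm_p (i : ι) : D.Sm (G.sg (D.p i)) = {D.p i} := by
  ext r
  rw [Sm, mem_filter, mem_Pos, sg_apply, G.ht_σ, G.A_p, mem_singleton]
  refine ⟨fun h => not_not.1 fun h' => by linarith [G.pos_p i r h.1 h', h.2], ?_⟩
  rintro rfl
  rw [← G.A_p, G.A_self]
  exact ⟨G.ht_p i, by linarith [G.ht_p i]⟩

theorem bruhat [Finite F] (hg : g ∈ G.G0 F) : ∃ u ∈ G.U F D.Pos, ∃ m w c, G.Mon m w c ∧
    ∃ y ∈ G.U F (D.Sm w), g = u * m * y := by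
  let P : GL (ι ⊕ Φ) F → Prop := fun g => ∃ u ∈ G.U F D.Pos, ∃ m w c, G.Mon m w c ∧
    ∃ y ∈ G.U F D.Pos, g = u * m * y
  have hU : ∀ k ∈ G.U F D.Pos, ∀ g, P g → P (k * g) := by
    rintro k hk _ ⟨u, hu, m, w, c, hm, y, hy, rfl⟩
    exact ⟨_, mul_mem hk hu, m, w, c, hm, y, hy, by group⟩
  have hT : ∀ χ g, P g → P (D.hT F χ * g) := by
    rintro χ _ ⟨u, hu, m, w, c, hm, y, hy, rfl⟩
    exact ⟨_, hT_conj_U χ hu, _, _, _, (G.mon_hT χ).mul hm, y, hy, by group⟩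
  have hp : ∀ i, D.p i ∈ D.Pos := fun i => mem_Pos.2 (G.ht_p i)
  have hn : ∀ i g, P g → P (G.n (D.p i) * g) := by
    rintro i _ ⟨u, hu, m, w, c, hm, y, hy, rfl⟩
    obtain ⟨η, -, h⟩ := G.mon_n (F := F) (D.p i)
    obtain ⟨v, hv, z, hz, rfl⟩ := U_split h2 h.mem hu
    rw [Sm_p, ← insert_empty_eq] at hz
    obtain ⟨a, z, hz', rfl⟩ := mem_U_insert (by simp) hz
    obtain rfl : z = 1 := by simpa [U] using hz'
    rw [show G.n (D.p i) * (v * (G.x (D.p i) a * 1) * m * y) = G.n (D.p i) * v * (G.n (D.p i))⁻¹ *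
      (G.n (D.p i) * (G.x (D.p i) a * m) * y) by group]
    refine hU _ (h.conj_Sp hv) _ ?_
    rcases (G.ht_ne (w⁻¹ (D.p i))).lt_or_gt with h1 | h1
    · by_cases ha : a = 0
      · exact ⟨1, one_mem _, _, _, _, h.mul hm, y, hy, by simp [ha, G.x_zero]⟩
      obtain ⟨a, rfl⟩ : ∃ a' : Fˣ, a = (a'⁻¹ : Fˣ) := ⟨(Units.mk0 a ha)⁻¹, rfl⟩
      obtain ⟨b, hb⟩ := (h.mul hm).x_mul (D.p i) (-a : F)
      refine ⟨_, x_mem_U (hp i) (-a : F), _, _, _, ((G.mon_hr (D.p i) a).mul h).mul (h.mul hm), _,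
        mul_mem (x_mem_U (r := (G.sg (D.p i) * w)⁻¹ (D.p i)) (mem_Pos.2 ?_) b) hy, ?_⟩
      · rw [_root_.mul_inv_rev, Equiv.Perm.mul_apply, sg_inv, sg_apply, G.σ_self,
          W_neg (inv_mem hm.mem), G.ht_neg, neg_pos]
        exact h1
      · rw [← mul_assoc, G.n_mul_x, mul_assoc _ _ m, mul_assoc _ (G.x _ _), hb]
        group
    · obtain ⟨b, hb⟩ := hm.x_mul (D.p i) a
      exact ⟨1, one_mem _, _, _, _, h.mul hm, _, mul_mem (x_mem_U (mem_Pos.2 h1) b) hy, by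
        rw [hb]; group⟩
  have h3 : ∀ i s, (∀ a g, P g → P (G.x s a * g)) → ∀ a g, P g → P (G.x (D.σ (D.p i) s) a * g) :=
    fun i s hs a g hg => by
    obtain ⟨η, -, h⟩ := G.mon_n (F := F) (D.p i)
    rw [← (η s).mul_inv_cancel_left a, ← G.sg_apply, ← h.conj', G.n_inv, mul_assoc, mul_assoc,
      mul_assoc]
    exact hn _ _ (hs _ _ (hT _ _ (hn _ _ hg)))
  have h4 : ∀ s, (∀ a g, P g → P (G.x s a * g)) ∧ ∀ a g, P g → P (G.x (D.neg s) a * g) :=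
    G.root_ind (fun i => ⟨fun a => hU _ (x_mem_U (hp i) a),
      G.σ_self _ ▸ h3 i _ fun a => hU _ (x_mem_U (hp i) a)⟩)
      (fun s h => ⟨h.2, (G.neg_neg s).symm ▸ h.1⟩) fun i s h => ⟨h3 i s h.1, by
        rw [← G.sg_apply, ← W_neg (G.sg_mem _)]; exact h3 i _ h.2⟩
  obtain ⟨u, hu, m, w, c, hm, y, hy, rfl⟩ : P g := by
    induction hg using closure_induction_left with
    | one => exact ⟨1, one_mem _, 1, _, _, G.mon_one, 1, one_mem _, by simp⟩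
    | mul_left x hx y hy ih => obtain ⟨r, a, rfl⟩ := hx; exact (h4 r).1 a y ih
    | inv_mul_cancel x hx y hy ih => obtain ⟨r, a, rfl⟩ := hx; exact G.x_neg r a ▸ (h4 r).1 _ y ih
  obtain ⟨v, hv, z, hz, rfl⟩ := U_split h2 hm.mem hy
  exact ⟨_, mul_mem hu (hm.conj_Sp hv), m, w, c, hm, z, hz, by group⟩

open Classical in
theorem card_centralizer [Finite F] (χ : ι → Fˣ) :
    Nat.card (G.G0 F ⊓ centralizer {D.hT F χ} : Subgroup _) =
      Nat.card F ^ #(D.Pos.filter fun r => ch χ (D.wt r) = 1) *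
      (Nat.card F - 1) ^ Fintype.card ι * ∑ w : Equiv.Perm Φ with
        w ∈ G.Wg ∧ ∀ s, ch χ (D.wt (w s)) = ch χ (D.wt s),
        Nat.card F ^ #((D.Sm w).filter fun r => ch χ (D.wt r) = 1) := by
  choose m hm c hc using fun w : {w // w ∈ G.Wg ∧ ∀ s, ch χ (D.wt (w s)) = ch χ (D.wt s)} =>
    G.exists_mon (F := F) w.2.1
  have h1 : ∀ {m w c}, G.Mon m w c →
      (m ∈ centralizer {D.hT F χ} ↔ ∀ s, ch χ (D.wt (w s)) = ch χ (D.wt s)) := fun {m w c} h => by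
    rw [mem_centralizer_singleton_iff]
    exact ⟨fun h' s => mul_right_cancel ((congrFun ((h.mul (G.mon_hT χ)).unique
      (h' ▸ (G.mon_hT χ).mul h)).2 s).symm.trans (mul_comm _ _)), fun h' =>
      (h.mul (G.mon_hT χ)).ext ((G.mon_hT χ).mul h) (by simp) fun s => by simp [h', mul_comm]⟩
  rw [← Nat.card_eq_of_bijective (fun z : Σ w : {w // w ∈ G.Wg ∧ ∀ s, ch χ (D.wt (w s)) =
      ch χ (D.wt s)}, (G.U F D.Pos ⊓ centralizer {D.hT F χ} : Subgroup _) × (ι → Fˣ) ×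
      (G.U F (D.Sm w) ⊓ centralizer {D.hT F χ} : Subgroup _) =>
      (⟨z.2.1 * (D.hT F z.2.2.1 * m z.1) * z.2.2.2, mul_mem (mul_mem (U_le z.2.1.2.1)
        (mul_mem (G.hT_mem _) (hm _))) (U_le z.2.2.2.2.1), mul_mem (mul_mem z.2.1.2.2
        ((h1 ((G.mon_hT _).mul (hc _))).2 z.1.2.2)) z.2.2.2.2.2⟩ :
        (G.G0 F ⊓ centralizer {D.hT F χ} : Subgroup _))) ⟨?_, ?_⟩, Nat.card_sigma, mul_sum,
    ← sum_subtype_eq_sum_filter, subtype_univ]
  · refine sum_congr rfl fun w _ => ?_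
    rw [Nat.card_prod, Nat.card_prod, card_U χ cl_Pos, card_U χ (cl_Sm w.2.1), Nat.card_fun,
      Nat.card_units, Nat.card_eq_fintype_card (α := ι), mul_assoc]
  · rintro ⟨w, u, χ₁, y⟩ ⟨w', u', χ₂, y'⟩ h
    replace h := congrArg Subtype.val h
    have h3 := (G.mon_hT χ₁).mul (hc w)
    have h4 := (G.mon_hT χ₂).mul (hc w')
    have h5 := bruhat_mon h2 u.2.1 u'.2.1 h3 h4 (U_mono (filter_subset _ _) y.2.1)
      (U_mono (filter_subset _ _) y'.2.1) h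
    obtain rfl : w = w' := Subtype.ext (mul_left_cancel (h3.unique (h5 ▸ h4)).1)
    obtain rfl := G.hT_injective (mul_right_cancel h5)
    obtain ⟨h6, h7⟩ := bruhat_unique h2 u.2.1 u'.2.1 (h3.congr (one_mul _) fun _ => rfl)
      y.2.1 y'.2.1 h
    rw [Subtype.ext h6, Subtype.ext h7]
  · rintro ⟨g, hg, hc'⟩
    obtain ⟨u, hu, k, w, c', hk, y, hy, rfl⟩ := bruhat h2 hg
    have h3 : D.hT F χ * u * (D.hT F χ)⁻¹ * (D.hT F χ * k * (D.hT F χ)⁻¹) *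
        (D.hT F χ * y * (D.hT F χ)⁻¹) = u * k * y := by
      rw [conj_mul, conj_mul, mul_inv_eq_iff_eq_mul, mem_centralizer_singleton_iff.1 hc']
    have h4 := bruhat_mon h2 (hT_conj_U χ hu) hu (((G.mon_hT χ).mul hk).mul (G.mon_hT χ).inv) hk
      (U_mono (filter_subset _ _) (hT_conj_U χ hy)) (U_mono (filter_subset _ _) hy) h3
    obtain ⟨h5, h6⟩ := bruhat_unique h2 (hT_conj_U χ hu) hu hk (hT_conj_U χ hy) hy (by rwa [h4] at h3)
    have h7 : ∀ {g}, D.hT F χ * g * (D.hT F χ)⁻¹ = g → g ∈ centralizer {D.hT F χ} := fun h =>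
      mem_centralizer_singleton_iff.2 (mul_inv_eq_iff_eq_mul.1 h).symm
    obtain ⟨χ', h8⟩ := ((hk.mul (hc ⟨w, hk.mem, (h1 hk).1 (h7 h4)⟩).inv).congr (mul_inv_cancel _)
      fun _ => rfl).exists_hT h2
    exact ⟨⟨⟨w, hk.mem, (h1 hk).1 (h7 h4)⟩, ⟨u, hu, h7 h5⟩, χ', y, hy, h7 h6⟩, Subtype.ext (by
      simp only [← h8, inv_mul_cancel_right])⟩

end Good
end RD
end CfsgLib.Chev
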