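import Cfsg.Agent.Lib.Chev.Stmt
import Cfsg.Agent.Lib.Chev.TF4

/-! Certificates for the involutions in type F4. -/

set_option autoImplicit false

namespace CfsgLib.Chev
open Cfsg.Lie

theorem mchkF4_0 : ftF4.MChk 0 0xffffffffffff
    0x5e0000005c0000005a0000005800000056000000540000005200000056000000540000005200000050000000500000004e0000004c0000004a00000052000000500000004e0000004e0000004c0000004a0000004c0000004a0000004a00000046000000460000004400000046000000440000004200000042000000400000003e00000046000000440000004200000040000000400000003e0000003c0000003a0000003e0000003c0000003a00000038000000360000003400000032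
    [24, 27, 33, 25, 46] := by decide +kernel

theorem rchkF4 : ftF4.RChk [3, 15] 0x132122312430110 := by decide +kernel

theorem mchkF4_3 : ftF4.MChk 3 0xef1dc7e3b8f7
    0x3e0000003c0000003a0000003a0000003a000000380000003600000038000000380000003600000034000000360000003400000032000000320000003600000034000000320000003400000032000000300000003400000032000000320000002e0000002e0000002c000000300000002e0000002c0000002e0000002c0000002a0000002e0000002e0000002c0000002a0000002c0000002a00000028000000280000002a000000280000002600000026000000260000002400000022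
    [24, 25, 27, 33, 38] := by decide +kernel

/-- A chain of stabilizers. -/
def csF4_3 : List (ℕ × ℕ × ℕ × List ℕ) :=
  [(47, 0xee01c7e38077, 0x20c42423040,
    [0, 1, 2, 2, 3, 4, 3, 4, 5, 4, 5, 5, 6, 6, 7, 6, 7, 8, 7, 8, 9, 9, 10, 11]),
   (41, 0x20002400040, 0x42420000,
    [0, 1, 2, 3]),
   (30, 0x40020000, 0x2400000,
    [0, 1]),
   (25, 0x2400000, 0x0,
    [0, 1])]

theorem cchkF4_3 : (ftF4.chainChk 0xef1dc7e3b8f7 csF4_3 &&
    Nat.beq (cntN chevF4.nroots fun s => ftF4.ps s && tb 0xef1dc7e3b8f7 s) 16) = true := by
  decide +kernel

theorem mchkF4_15 : ftF4.MChk 15 0x45a8ac3515a2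
    0x280000002800000026000000240000002200000020000000200000002600000024000000220000002200000020000000200000001e0000001c00000026000000240000002400000022000000220000002000000020000000200000001e0000001e0000001c0000001c0000001c0000001a0000001a000000180000001800000016000000200000001e0000001c0000001c0000001a0000001a00000018000000160000001c0000001c0000001a00000018000000160000001400000014
    [25, 27, 33, 24, 46] := by decide +kernel

/-- A chain of stabilizers. -/
def csF4_15 : List (ℕ × ℕ × ℕ × List ℕ) :=
  [(46, 0x400084210002, 0x400ac350020,
    [0, 1, 2, 3, 4, 5]),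
   (42, 0x40000000020, 0xac350000,
    [0, 1]),
   (31, 0x84210000, 0x4200000,
    [0, 1, 2, 3]),
   (26, 0x4200000, 0x0,
    [0, 1])]

theorem cchkF4_15 : (ftF4.chainChk 0x45a8ac3515a2 csF4_15 &&
    Nat.beq (cntN chevF4.nroots fun s => ftF4.ps s && tb 0x45a8ac3515a2 s) 10) = true := by
  decide +kernel

end CfsgLib.Chev
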