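import Cfsg.Agent.Lib.Chev.Check
import Cfsg.Prelude.Def_ChevG2

/-! Packed tables for type G2. -/

set_option autoImplicit false

namespace CfsgLib.Chev
open Cfsg.Lie

/-- Structure constants, Cartan integers and sums. -/
def rowG2 (r : ℕ) : ℕ :=
  (bif Nat.blt r 6 then
  (bif Nat.blt r 3 then
   (bif Nat.blt r 1 then
    0x2c1520348094006c054008c01b008c023008c02b else
    (bif Nat.blt r 2 then
     0x64800b044801b02500230050023006c02300ac023 else
     0x8081c2002c115034401b006c066009802b00cc033)) else
   (bif Nat.blt r 4 then
    0x91001b075400b058010400cc09100ac020006c033 else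
    (bif Nat.blt r 5 then
     0x6c24408441a0002c033031002b025406000cc01b else
     0xa50023006c1d4008c00b00ac0d2008c01b0048023))) else
  (bif Nat.blt r 9 then
   (bif Nat.blt r 7 then
    0x8c2d4006c023085002b002c023044801b008c052 else
    (bif Nat.blt r 8 then
     0x6c0330a9825100ac20200cc00b05980d5020801b else
     0xcc01b0b9802b095403307081a6002c111006c082)) else
   (bif Nat.blt r 10 then
    0xcc03300ac2e00a8001b006c215074400b04100c4 else
    (bif Nat.blt r 11 then
     0x8c02b008c01b008c2d2008c252006c1d4002c154 else
     0xac023008c023006c0230a4801b0948214065000b))))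

/-- Reflections. -/
def rowSG2 (r : ℕ) : ℕ :=
  (bif Nat.blt r 6 then
  (bif Nat.blt r 3 then
   (bif Nat.blt r 1 then
    0x5030207010a040908060b else
    (bif Nat.blt r 2 then
     0x6010408020b000903070a05 else
     0x10002040306050807090b0a)) else
   (bif Nat.blt r 4 then
    0x50a070309000b0208040106 else
    (bif Nat.blt r 5 then
     0xb060809040a010702030500 else
     0xa0b09070805060304020001))) else
  (bif Nat.blt r 9 then
   (bif Nat.blt r 7 then
    0xa0b09070805060304020001 else
    (bif Nat.blt r 8 then
     0xb060809040a010702030500 else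
     0x50a070309000b0208040106)) else
   (bif Nat.blt r 10 then
    0x10002040306050807090b0a else
    (bif Nat.blt r 11 then
     0x6010408020b000903070a05 else
     0x5030207010a040908060b))))

/-- The packed tables. -/
def ftG2 : FT chevG2 where
  pos := by decide
  row := rowG2
  rowS := rowSG2
  wT := 0x980000007b00000089000000970000007a000000a50000006b0000009600000079000000870000009500000078
  cT := 0xa900000099000000ba000000b90000008900000098000000780000008700000057000000560000007700000067
  hT := 0x8000001d8000001c800000138000000a80000009800000017fffffff7ffffff77ffffff67fffffed7fffffe47fffffe3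
  H0 := 2147483648
  p := (![7, 6] : Fin 2 → Fin 12)
  fv := (![19, 29] : Fin 2 → ℤ)
  len := fun r => dg 0x331113311133 r
  B := (![![2, 3], ![3, 6]] : Fin 2 → Fin 2 → ℤ)
  lam := (![![2, 3], ![1, 2]] : Fin 2 → Fin 2 → ℤ)

theorem smallG2 : ftG2.Small := by decide +kernel

theorem chk2G2 : allN chevG2.nroots ftG2.chk2 = true := by decide +kernel

theorem chk4G2 : allN chevG2.nroots ftG2.chk4 = true := by decide +kernel

theorem chk3G2_0 : ftG2.chk3 0 = true := by decide +kernel

theorem chk3G2_7 : ftG2.chk3 7 = true := by decide +kernel

theorem chk3G2_6 : ftG2.chk3 6 = true := by decide +kernel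

theorem goodG2 : ftG2.rd.Good :=
  FT.good smallG2 chk2G2 chk3G2_0 fun i => by
    fin_cases i
    exacts [chk3G2_7, chk3G2_6]

end CfsgLib.Chev
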