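import Cfsg.Agent.Lib.Chev.Stmt
import Cfsg.Agent.Lib.Chev.TG2

/-! Certificates for the involutions in type G2. -/

set_option autoImplicit false

namespace CfsgLib.Chev
open Cfsg.Lie

theorem mchkG2_0 : ftG2.MChk 0 0xfff
    0x1c0000001a0000001800000016000000140000001400000010000000100000000e0000000c0000000a00000008
    [6, 7, 11] := by decide +kernel

theorem rchkG2 : ftG2.RChk [3] 0x110 := by decide +kernel

theorem mchkG2_3 : ftG2.MChk 3 0x50a
    0xa0000000800000008000000080000000600000008000000040000000600000004000000040000000400000002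
    [7, 6, 11] := by decide +kernel

/-- A chain of stabilizers. -/
def csG2_3 : List (ℕ × ℕ × ℕ × List ℕ) :=
  [(10, 0x402, 0x108,
    [0, 1]),
   (8, 0x108, 0x0,
    [0, 1])]

theorem cchkG2_3 : (ftG2.chainChk 0x50a csG2_3 &&
    Nat.beq (cntN chevG2.nroots fun s => ftG2.ps s && tb 0x50a s) 2) = true := by
  decide +kernel

end CfsgLib.Chev
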