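import Cfsg.Agent.Lib.Chev.Weyl
import Cfsg.Prelude.Def_Chevalley

/-! Packed tables and Boolean checks for the hypotheses `RD.Good`. -/

set_option autoImplicit false

namespace CfsgLib.Chev
open Matrix Finset Cfsg.Lie

/-- Bounded universal quantifier. -/
def allN (n : ℕ) (f : ℕ → Bool) : Bool := Nat.rec true (fun i ih => f i && ih) n

/-- Bounded sum. -/
def sumN (n : ℕ) (f : ℕ → ℕ) : ℕ := Nat.rec 0 (fun i ih => Nat.add ih (f i)) n

/-- Evaluate the first argument before continuing. -/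
def force {α : Type} (x : ℕ) (k : ℕ → α) : α := Nat.rec (k 0) (fun m _ => k (Nat.succ m)) x

theorem force_eq {α : Type} (x : ℕ) (k : ℕ → α) : force x k = k x := by cases x <;> rfl

theorem allN_iff {n : ℕ} {f : ℕ → Bool} : allN n f = true ↔ ∀ i < n, f i = true := by
  induction n with
  | zero => simp [allN]
  | succ n ih =>
    rw [show allN (n + 1) f = (f n && allN n f) from rfl, Bool.and_eq_true, ih, and_comm]
    exact Nat.forall_lt_succ_right.symm

theorem sumN_eq (n : ℕ) (f : ℕ → ℕ) : sumN n f = ∑ i : Fin n, f i := by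
  induction n with
  | zero => rfl
  | succ n ih => rw [Fin.sum_univ_castSucc]; exact congrArg (· + f n) ih

/-- Entry of a packed row. -/
def ent (row u : ℕ) : ℕ := Nat.mod (Nat.shiftRight row (Nat.mul 14 u)) 16384

/-- Code of the structure constant. -/
def nn (e : ℕ) : ℕ := Nat.mod e 8

/-- Code of the Cartan integer. -/
def aa (e : ℕ) : ℕ := Nat.mod (Nat.shiftRight e 3) 8

/-- Index of the sum. -/
def dd (n e : ℕ) : ℕ := Nat.mod (Nat.shiftRight e 6) n

/-- A digit in base sixteen. -/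
def dg (x i : ℕ) : ℕ := Nat.mod (Nat.shiftRight x (Nat.mul 4 i)) 16

/-- A digit in base `2 ^ 32`. -/
def wd (x i : ℕ) : ℕ := Nat.mod (Nat.shiftRight x (Nat.mul 32 i)) 4294967296

/-- Packed tables. -/
structure FT (D : ChevalleyDatum) where
  pos : 0 < D.nroots
  row : ℕ → ℕ
  rowS : ℕ → ℕ
  wT : ℕ
  cT : ℕ
  hT : ℕ
  H0 : ℕ
  p : Fin D.rank → Fin D.nroots
  fv : Fin D.rank → ℤ
  len : Fin D.nroots → ℤ
  B : Fin D.rank → Fin D.rank → ℤ
  lam : Fin D.rank → Fin D.rank → ℤ

namespace FT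
variable {D : ChevalleyDatum} (T : FT D)

/-- The root data read off the packed tables. -/
def rd : RD (Fin D.rank) (Fin D.nroots) where
  wt r i := (dg (wd T.wT r) i : ℤ) - 8
  co r i := (dg (wd T.cT r) i : ℤ) - 8
  neg := Fin.rev
  add r s := ⟨dd D.nroots (ent (T.row r) s), Nat.mod_lt _ T.pos⟩
  N r s := (nn (ent (T.row r) s) : ℤ) - 3
  p := T.p
  r0 := ⟨0, T.pos⟩
  fv := T.fv
  len := T.len
  B := of T.B

/-- The packed reflection table. -/
def sN (r s : ℕ) : ℕ := Nat.mod (Nat.mod (Nat.shiftRight (T.rowS r) (Nat.mul 8 s)) 256) D.nroots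

/-- The small checks. -/
def Small : Prop :=
  (∀ r, T.rd.ht r = (wd T.hT r : ℤ) - T.H0) ∧
  (∀ r, r + 1 < D.nroots → wd T.hT r < wd T.hT (r + 1)) ∧
  (∀ r i, T.rd.wt r.rev i = -T.rd.wt r i ∧ T.rd.co r.rev i = -T.rd.co r i ∧
    T.len r * T.rd.co r i = T.B i ⬝ᵥ T.rd.wt r ∧
    ((T.H0 : ℤ) < wd T.hT r → r ≠ T.p i →
      T.rd.wt r i * ((wd T.hT (T.p i) : ℤ) - T.H0) < (wd T.hT r : ℤ) - T.H0) ∧
    T.rd.wt r i = (D.cartanSR.getD i #[]).getD r 0 ∧ T.rd.co r i = (D.coroot.getD r #[]).getD i 0) ∧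
  (∀ r, T.rd.A r r = 2 ∧ T.rd.N r r = 0 ∧ T.rd.N r r.rev = 0 ∧ 0 < T.len r ∧
    ((T.H0 : ℤ) < wd T.hT r → ∃ i, 0 < T.rd.wt r i) ∧
    (∃ s : Fin D.nroots, aa (ent (T.row s) r) = 4) ∧ D.negIdx.getD r 0 = r.rev ∧
    (r = T.rd.r0 ∨ (∃ i, r = T.p i) ∨ ∃ i, T.rd.N (T.p i) (T.rd.add (T.p i).rev r) ≠ 0 ∧
      T.rd.add (T.p i) (T.rd.add (T.p i).rev r) = r)) ∧
  ∀ i j, (T.H0 : ℤ) < wd T.hT (T.p i) ∧ (T.rd.co (T.p i) j = if j = i then 1 else 0) ∧
    (T.lam j ⬝ᵥ T.rd.wt (T.p i) = if i = j then 1 else 0) ∧ T.B i j = T.B j i ∧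
    (i ≠ j → T.rd.wt (T.p j) i = 0 ∨ T.rd.wt (T.p j) i % 2 = 1 ∨ T.rd.wt (T.p i) j % 2 = 1)

attribute [local instance 2000] Nat.decidableForallFin Nat.decidableExistsFin in
set_option synthInstance.maxSize 4000 in
instance decSmall : Decidable T.Small := by
  unfold Small
  letI : Decidable (∀ r, r + 1 < D.nroots → wd T.hT r < wd T.hT (r + 1)) :=
    decidable_of_iff (∀ r : Fin D.nroots, r + 1 < D.nroots → wd T.hT r < wd T.hT (r + 1))
      ⟨fun h r hr => h ⟨r, by omega⟩ hr, fun h r => h r⟩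
  refine @instDecidableAnd _ _ inferInstance (@instDecidableAnd _ _ inferInstance
    (@instDecidableAnd _ _ inferInstance (@instDecidableAnd _ _ inferInstance inferInstance)))

/-- The checks on pairs of roots. -/
def chk2 (r : ℕ) : Bool :=
  force (T.row r) fun rr => force (wd T.cT r) fun cr => force (wd T.wT r) fun wr =>
  force (wd T.hT r) fun hr => allN D.nroots fun s => force (ent rr s) fun e =>
  force (wd T.wT s) fun ws =>
  Nat.beq (Nat.add (nn e) (nn (ent (T.row s) r))) 6 &&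
  (Nat.beq (Nat.add (sumN D.rank fun i => Nat.add (Nat.mul (dg cr i) (dg ws i)) 64) 3)
    (Nat.add (aa e) (sumN D.rank fun i => Nat.mul 8 (Nat.add (dg cr i) (dg ws i)))) &&
  (Nat.beq (Nat.add (Nat.add (wd T.hT (T.sN r s)) (Nat.mul (aa e) hr)) (Nat.mul 3 T.H0))
    (Nat.add (Nat.add (wd T.hT s) (Nat.mul 3 hr)) (Nat.mul (aa e) T.H0)) &&
  (Nat.beq (nn e) 3 || force (dd D.nroots e) fun a => force (wd T.wT a) fun wa =>
    (allN D.rank fun i => Nat.beq (Nat.add (dg wa i) 8) (Nat.add (dg wr i) (dg ws i))) &&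
    (!Nat.beq (Nat.add (Nat.add a r) 1) D.nroots && force (ent rr a) fun e1 =>
    (Nat.beq (nn e1) 3 || force (ent rr (dd D.nroots e1)) fun e2 =>
      decide (2 ∣ ((nn e : ℤ) - 3) * ((nn e1 : ℤ) - 3) ∧
        6 ∣ ((nn e : ℤ) - 3) * ((nn e1 : ℤ) - 3) * ((nn e2 : ℤ) - 3) ∧
        (nn e2 = 3 ∨ nn (ent rr (dd D.nroots e2)) = 3)))))))

/-- The Jacobi identities for one generator. -/
def chk3 (r : ℕ) : Bool :=
  force (T.row r) fun rr => allN D.nroots fun s => force (T.row s) fun rs =>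
  force (ent rr s) fun ers => force (dd D.nroots ers) fun ars => force (T.row ars) fun rrs =>
  force (nn ers) fun nrs => allN D.nroots fun u =>
  force (ent rs u) fun esu => force (ent rr u) fun eru => force (nn esu) fun nsu =>
  force (nn eru) fun nru => force (dd D.nroots esu) fun asu => force (dd D.nroots eru) fun aru =>
  force (nn (ent rr asu)) fun x => force (nn (ent rs aru)) fun y => force (nn (ent rrs u)) fun z =>
  Nat.beq
    (Nat.add (Nat.add (Nat.mul nsu x) (Nat.mul 3 (Nat.add (Nat.add nru y) (Nat.add nrs z))))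
      (bif Nat.beq (Nat.add (Nat.add u r) 1) D.nroots then aa ers else 3))
    (Nat.add (Nat.add (Nat.add (Nat.add (Nat.mul nru y) (Nat.mul nrs z)) (Nat.mul 3 (Nat.add nsu x)))
      (Nat.add 6 (bif Nat.beq (Nat.add (Nat.add u s) 1) D.nroots then aa (ent rs r) else 3)))
      (bif Nat.beq (Nat.add (Nat.add s r) 1) D.nroots then aa eru else 3)) &&
  force (bif Nat.beq (Nat.add (Nat.add asu r) 1) D.nroots then nsu else 3) fun a =>
  force (bif Nat.beq (Nat.add (Nat.add aru s) 1) D.nroots then nru else 3) fun b =>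
  force (bif Nat.beq (Nat.add (Nat.add u ars) 1) D.nroots then nrs else 3) fun c =>
  (Nat.beq a 3 && (Nat.beq b 3 && Nat.beq c 3)) || allN D.rank fun i =>
    decide (((a : ℤ) - 3) * ((dg (wd T.cT r) i : ℤ) - 8) - ((b : ℤ) - 3) * ((dg (wd T.cT s) i : ℤ) - 8)
      = ((c : ℤ) - 3) * ((dg (wd T.cT ars) i : ℤ) - 8))

/-- The chain table generated from the packed tables. -/
def canon (rr e : ℕ) : List (ℕ × ℤ) :=
  force (ent rr (dd D.nroots e)) fun e1 => (dd D.nroots e, (nn e : ℤ) - 3) ::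
    bif Nat.beq (nn e1) 3 then [] else force (ent rr (dd D.nroots e1)) fun e2 =>
      (dd D.nroots e1, ((nn e : ℤ) - 3) * ((nn e1 : ℤ) - 3) / 2) ::
      bif Nat.beq (nn e2) 3 then [] else
        [(dd D.nroots e2, ((nn e : ℤ) - 3) * ((nn e1 : ℤ) - 3) * ((nn e2 : ℤ) - 3) / 6)]

/-- Comparison with the chain table of the datum. -/
def chk4 (r : ℕ) : Bool := force (T.row r) fun rr =>
  decide ((D.chain.getD r #[]).toList.map (fun e => (e.1, e.2.toList)) =
    (List.range D.nroots).filterMap fun s => force (ent rr s) fun e =>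
      bif Nat.beq (nn e) 3 then none else some (s, canon (D := D) rr e))

variable {T}

theorem rev_iff {r s : Fin D.nroots} : r = s.rev ↔ (r : ℕ) + s + 1 = D.nroots := by
  rw [Fin.ext_iff, Fin.val_rev]; omega

theorem A_eq (h2 : allN D.nroots T.chk2 = true) (r s : Fin D.nroots) :
    T.rd.A r s = (aa (ent (T.row r) s) : ℤ) - 3 := by
  have h := allN_iff.1 h2 r r.2
  simp only [chk2, force_eq, allN_iff, Bool.and_eq_true] at h
  have h1 := congrArg (Nat.cast : ℕ → ℤ) (Nat.eq_of_beq_eq_true (h s s.2).2.1)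
  simp only [sumN_eq, Nat.add_eq, Nat.mul_eq, Nat.cast_add, Nat.cast_sum, Nat.cast_mul,
    Nat.cast_ofNat] at h1
  rw [eq_sub_iff_add_eq, ← add_left_inj, ← h1, add_right_comm, RD.A, dotProduct, ← sum_add_distrib]
  congr 1
  exact sum_congr rfl fun i _ => by simp only [rd]; ring

theorem good (h1 : T.Small) (h2 : allN D.nroots T.chk2 = true) (h3 : T.chk3 0 = true)
    (h4 : ∀ i, T.chk3 (T.p i) = true) : T.rd.Good := by
  obtain ⟨a1, a2, a3, a4, a5⟩ := h1
  have hA := A_eq h2
  have b : ∀ r s : Fin D.nroots, _ := fun r s => by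
    have h := allN_iff.1 h2 r r.2
    simp only [chk2, force_eq, allN_iff, Bool.and_eq_true, Bool.or_eq_true, Nat.beq_eq, Nat.add_eq,
      Bool.not_eq_true', ← Bool.not_eq_true, decide_eq_true_eq] at h
    exact And.intro (h s s.2).1 (h s s.2).2.2.2
  have c : ∀ r : Fin D.nroots, (r = T.rd.r0 ∨ ∃ i, r = T.rd.p i) → ∀ s u : Fin D.nroots, _ :=
    fun r hr s u => by
    have h : T.chk3 r = true := by
      rcases hr with rfl | ⟨i, rfl⟩
      exacts [h3, h4 i]
    simp only [chk3, force_eq, allN_iff, Bool.and_eq_true, Bool.or_eq_true, Nat.beq_eq, Nat.add_eq,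
      Nat.mul_eq, decide_eq_true_eq, Bool.cond_eq_ite] at h
    exact h s s.2 u u.2
  have hN : ∀ {r s}, T.rd.N r s ≠ 0 → nn (ent (T.row r) s) ≠ 3 := fun h h' => h (by simp [rd, h'])
  refine
    { ht_inj := StrictMono.injective fun r s h => ?_
      wt_neg := fun r => funext fun i => (a3 r i).1
      co_neg := fun r => funext fun i => (a3 r i).2.1
      A_self := fun r => (a4 r).1
      wt_add := fun r s h => funext fun i => ?_
      N_self := fun r => (a4 r).2.1
      N_neg := fun r => (a4 r).2.2.1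
      add_ne := fun r s h h' => ((b r s).2.resolve_left (hN h)).2.1 (rev_iff.1 h')
      N_anti := fun r s => by have := (b r s).1; simp only [rd]; omega
      jac1 := fun r hr s u => ?_
      jac2 := fun r hr s u i => ?_
      gen := fun u => (a4 u).2.2.2.2.2.2.2.imp_right (Or.imp_right fun ⟨i, h⟩ => ⟨i, _, h⟩)
      dvd2 := fun r s => ?_
      dvd6 := fun r s => ?_
      nil := fun r s => ?_
      co_p := fun i => funext fun j => by rw [Pi.single_apply]; exact (a5 i j).2.1
      ht_p := fun i => by rw [a1, sub_pos]; exact (a5 i i).1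
      pos_p := fun i r h => by rw [a1, sub_pos] at h; rw [a1, a1]; exact (a3 r i).2.2.2.1 h
      desc := fun r h => (a4 r).2.2.2.2.1 (by rwa [a1, sub_pos] at h)
      prim := fun r => (a4 r).2.2.2.2.2.1.imp fun s h => by rw [hA, h]; rfl
      unim := ⟨T.lam, fun i j => (a5 i j).2.2.1⟩
      odd := fun i j h => ((a5 i j).2.2.2.2 h).imp_right (Or.imp Int.odd_iff.2 Int.odd_iff.2)
      len_pos := fun r => (a4 r).2.2.2.1
      B_symm := Matrix.ext fun i j => (a5 j i).2.2.2.1
      co_B := fun r => funext fun i => (a3 r i).2.2.1 }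
  · rw [a1, a1, sub_lt_sub_iff_right, Nat.cast_lt]
    have : ∀ k : ℕ, r < k → k < D.nroots → wd T.hT r < wd T.hT k := fun k hk => by
      induction hk with
      | refl => exact a2 r
      | step _ ih => exact fun h => (ih (by omega)).trans (a2 _ h)
    exact this s h s.2
  · have := ((b r s).2.resolve_left (hN h)).1 i i.2
    simp only [rd, Pi.add_apply]
    omega
  · have := congrArg (Nat.cast : ℕ → ℤ) (c r hr s u).1
    simp only [hA]
    simp only [rev_iff, rd]
    push_cast at this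
    split_ifs at this ⊢ <;> linear_combination this
  · simp only [rev_iff, rd]
    rcases (c r hr s u).2 with h | h
    · split_ifs at h ⊢ <;> simp [h]
    · have := h i i.2
      push_cast at this
      split_ifs at this ⊢ <;> linear_combination this
  all_goals
    rcases (b r s).2 with h | ⟨-, -, h | ⟨h, h', h'' | h''⟩⟩ <;> simp [rd, *]

theorem σ_eq (G : T.rd.Good) (h1 : T.Small) (h2 : allN D.nroots T.chk2 = true)
    (r s : Fin D.nroots) : (T.rd.σ r s : ℕ) = T.sN r s := by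
  have h := allN_iff.1 h2 r r.2
  simp only [chk2, force_eq, allN_iff, Bool.and_eq_true] at h
  have h3 := congrArg (Nat.cast : ℕ → ℤ) (Nat.eq_of_beq_eq_true (h s s.2).2.2.1)
  simp only [Nat.add_eq, Nat.mul_eq, Nat.cast_add, Nat.cast_mul, Nat.cast_ofNat] at h3
  refine congrArg Fin.val (G.ht_inj (a₂ := ⟨_, Nat.mod_lt _ T.pos⟩) ?_)
  rw [G.ht_σ, A_eq h2, h1.1, h1.1, h1.1]
  exact by simp only [sN] at h3; linear_combination -h3

theorem chain_eq (h4 : allN D.nroots T.chk4 = true) (r s : Fin D.nroots) :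
    ((D.chain.getD r #[]).toList.filter (fun e => e.1 = s.val)).map (fun e => (e.1, e.2.toList)) =
      if T.rd.N r s = 0 then [] else [((s : ℕ), canon (D := D) (T.row r) (ent (T.row r) s))] := by
  have h := allN_iff.1 h4 r r.2
  simp only [chk4, force_eq, decide_eq_true_eq] at h
  have h6 : ∀ l : List ℕ, (l.filterMap fun s => bif Nat.beq (nn (ent (T.row r) s)) 3 then none
      else some (s, canon (D := D) (T.row r) (ent (T.row r) s))).filter (fun e => e.1 = s.val) =
      (l.filter (· = s.val)).filterMap fun s => bif Nat.beq (nn (ent (T.row r) s)) 3 then none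
      else some (s, canon (D := D) (T.row r) (ent (T.row r) s)) := fun l => by
    induction l with
    | nil => rfl
    | cons a l ih =>
      cases h : Nat.beq (nn (ent (T.row r) a)) 3 <;> by_cases h' : a = s <;>
        simp_all [List.filterMap_cons, List.filter_cons]
  have h7 := h6 (List.range D.nroots)
  rw [← h, List.filter_map, List.filter_eq, List.count_eq_one_of_mem List.nodup_range
    (List.mem_range.2 s.2)] at h7
  refine h7.trans ?_
  cases h : Nat.beq (nn (ent (T.row r) s)) 3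
  · rw [if_neg (by have := Nat.ne_of_beq_eq_false h; simp only [rd]; omega)]
    simp [h]
  · simp [h, rd, Nat.eq_of_beq_eq_true h]

theorem canon_sum {F : Type*} [Field F] (rr e0 u : ℕ) (t : F) {e1 e2 : ℕ}
    (h1 : e1 = ent rr (dd D.nroots e0)) (h2 : e2 = ent rr (dd D.nroots e1)) :
    (((((canon (D := D) rr e0).zipIdx).filter (fun q => q.1.1 = u)).map
      fun q => (q.2 + 1, q.1.2)).map fun km => ((km.2 : ℤ) : F) * t ^ km.1).sum =
    t * ((if dd D.nroots e0 = u then (nn e0 : ℤ) - 3 else 0 : ℤ) : F) +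
    (t ^ 2 * ((if dd D.nroots e1 = u then ((nn e0 : ℤ) - 3) * ((nn e1 : ℤ) - 3) / 2 else 0 : ℤ) : F) +
    t ^ 3 * ((if dd D.nroots e2 = u then
      ((nn e0 : ℤ) - 3) * ((nn e1 : ℤ) - 3) * ((nn e2 : ℤ) - 3) / 6 else 0 : ℤ) : F)) := by
  simp only [canon, force_eq, ← h1, ← h2]
  cases h8 : Nat.beq (nn e1) 3
  · cases h9 : Nat.beq (nn e2) 3
    · simp only [cond_false, List.zipIdx, List.filter_cons, List.filter_nil, decide_eq_true_eq]
      split_ifs <;> simp [mul_comm]
    · simp only [cond_false, cond_true, List.zipIdx, List.filter_cons, List.filter_nil,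
        decide_eq_true_eq]
      split_ifs <;> simp [mul_comm, Nat.eq_of_beq_eq_true h9]
  · simp only [cond_true, List.zipIdx, List.filter_cons, List.filter_nil, decide_eq_true_eq]
    split_ifs <;> simp [mul_comm, Nat.eq_of_beq_eq_true h8]

theorem xMat_eq (G : T.rd.Good) (h1 : T.Small) (h4 : allN D.nroots T.chk4 = true) (F : Type*)
    [Field F] (r : Fin D.nroots) (t : F) : D.xMat F r t = T.rd.X r t := by
  obtain ⟨-, -, a3, a4, -⟩ := h1
  ext (i | u) (j | s)
  · simp [ChevalleyDatum.xMat, RD.X, RD.E, RD.M2, RD.M3, RD.Ez, RD.M2z, RD.M3z, one_apply]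
  · simp only [ChevalleyDatum.xMat, of_apply, (a4 r).2.2.2.2.2.2.1, ← (a3 r i).2.2.2.2.2,
      Fin.val_inj]
    have : r ≠ r.rev := (G.neg_ne r).symm
    split_ifs with h1 h2 <;> simp [RD.X, RD.E, RD.M2, RD.M3, RD.Ez, RD.M2z, RD.M3z, *,
      show T.rd.neg = Fin.rev from rfl, mul_comm]
  · simp only [ChevalleyDatum.xMat, of_apply, ← (a3 r j).2.2.2.2.1]
    split_ifs with h1 <;> simp [RD.X, RD.E, RD.M2, RD.M3, RD.Ez, RD.M2z, RD.M3z, h1, mul_comm]
  simp only [ChevalleyDatum.xMat, of_apply, (a4 r).2.2.2.2.2.2.1, Fin.val_inj]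
  have hX : T.rd.X r t (.inr u) (.inr s) = (if u = s then 1 else 0) + t * T.rd.Ez r (.inr u) (.inr s) +
      t ^ 2 * T.rd.M2z r (.inr u) (.inr s) + t ^ 3 * T.rd.M3z r (.inr u) (.inr s) := by
    simp [RD.X, RD.E, RD.M2, RD.M3, one_apply]
  rw [hX]
  by_cases h1 : s = r
  · have := (G.neg_ne r).symm
    simp [h1, RD.Ez, RD.M2z, RD.M3z, G.N_self, this]
  by_cases h2 : s = r.rev
  · have h3 := G.N_neg r
    have h4 := G.neg_ne r
    simp only [show T.rd.neg = Fin.rev from rfl] at h3 h4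
    subst h2
    by_cases h6 : u = r <;>
      simp [h1, RD.Ez, RD.M2z, RD.M3z, h3, h4.symm, h6, show T.rd.neg = Fin.rev from rfl]
  have h6 : D.chainCoeff r s u = (((D.chain.getD r #[]).toList.filter (fun e => e.1 = s.val)).map
      (fun e => (e.1, e.2.toList))).flatMap fun e =>
      ((e.2.zipIdx).filter (fun q => q.1.1 = u.val)).map fun q => (q.2 + 1, q.1.2) := by
    rw [List.flatMap_map]; rfl
  rw [if_neg h1, if_neg h2, h6, chain_eq h4, add_assoc, add_assoc]
  congr 1
  simp only [RD.Ez, RD.M2z, RD.M3z, if_neg (show s ≠ T.rd.neg r from h2), zero_add]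
  by_cases h7 : T.rd.N r s = 0
  · simp [h7]
  rw [if_neg h7, List.flatMap_singleton, canon_sum _ _ _ _ rfl rfl]
  simp only [Fin.ext_iff, @eq_comm _ (u : ℕ), rd]

theorem group_eq (G : T.rd.Good) (h1 : T.Small) (h4 : allN D.nroots T.chk4 = true) (F : Type*)
    [Field F] : D.group F = G.G0 F :=
  congrArg Subgroup.closure (Set.ext fun _ => exists₂_congr fun r t => by
    rw [xMat_eq G h1 h4]; exact ⟨fun h => Units.ext h, fun h => congrArg Units.val h⟩)

end FT
end CfsgLib.Chev
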