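import Cfsg.Agent.Lib.Chev.Check

/-! Boolean certificates for centralizer orders of involutions. -/

set_option autoImplicit false

namespace CfsgLib.Chev
open Matrix Finset Cfsg.Lie

/-- A bit of a mask. -/
def tb (M r : ℕ) : Bool := Nat.beq (Nat.mod (Nat.shiftRight M r) 2) 1

/-- Bounded existential quantifier. -/
def anyN (n : ℕ) (f : ℕ → Bool) : Bool := Nat.rec false (fun i ih => f i || ih) n

/-- Bounded count. -/
def cntN (n : ℕ) (f : ℕ → Bool) : ℕ := sumN n fun i => bif f i then 1 else 0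

/-- List of values on a subset. -/
def selN (n : ℕ) (f : ℕ → Bool) (d : ℕ → ℕ) : List ℕ :=
  Nat.rec [] (fun i ih => bif f i then d i :: ih else ih) n

theorem anyN_iff {n : ℕ} {f : ℕ → Bool} : anyN n f = true ↔ ∃ i < n, f i = true := by
  induction n with
  | zero => simp [anyN]
  | succ n ih =>
    rw [show anyN (n + 1) f = (f n || anyN n f) from rfl, Bool.or_eq_true, ih, or_comm]
    exact Nat.exists_lt_succ_right.symm

theorem cntN_eq (n : ℕ) (f : ℕ → Bool) : cntN n f = #(univ.filter fun i : Fin n => f i) := by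
  simp [cntN, sumN_eq, Bool.cond_eq_ite]

theorem selN_sum (n : ℕ) (f : ℕ → Bool) (d g : ℕ → ℕ) :
    ((selN n f d).map g).sum = ∑ i ∈ univ.filter fun i : Fin n => f i, g (d i) := by
  rw [sum_filter]
  induction n with
  | zero => rfl
  | succ n ih =>
    rw [Fin.sum_univ_castSucc, show selN (n + 1) f d = bif f n then d n :: selN n f d else selN n f d
      from rfl]
    cases h : f n <;> simp [ih, h, add_comm]

namespace FT
variable {D : ChevalleyDatum} (T : FT D)

variable (D) in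
/-- The set of roots of a mask. -/
def msk (M : ℕ) : Finset (Fin D.nroots) := univ.filter fun r => tb M r

/-- Positivity. -/
def ps (r : ℕ) : Bool := Nat.blt T.H0 (wd T.hT r)

/-- Shifted Cartan integer. -/
def aN (α μ : ℕ) : ℕ := aa (ent (T.row α) μ)

/-- One step of a chain of stabilizers. -/
def stepChk (M lam O M' : ℕ) (dl : List ℕ) : Bool :=
  Nat.blt lam D.nroots && (tb O lam &&
  ((allN D.nroots fun α => (tb M' α == (tb M α && Nat.beq (T.aN α lam) 3)) &&
    (!tb M α || ((!T.ps α || Nat.ble 3 (T.aN α lam)) &&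
      allN D.nroots fun μ => !tb O μ || tb O (T.sN α μ)))) &&
  ((allN D.nroots fun μ => !tb O μ || (Nat.beq μ lam ||
    anyN D.nroots fun α => tb M α && (T.ps α && Nat.blt (T.aN α μ) 3))) &&
  decide (selN D.nroots (tb O)
    (fun μ => cntN D.nroots fun α => tb M α && (T.ps α && Nat.blt (T.aN α μ) 3)) = dl))))

/-- A chain of stabilizers. -/
def chainChk : ℕ → List (ℕ × ℕ × ℕ × List ℕ) → Bool
  | M, [] => Nat.beq M 0
  | M, c :: cs => T.stepChk M c.1 c.2.1 c.2.2.1 c.2.2.2 && chainChk c.2.2.1 cs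

/-- Roots successively determined by invariants. -/
def pinChk (M gT : ℕ) : List ℕ → Bool
  | [] => true
  | r :: L => pinChk M gT L && (Nat.blt r D.nroots && allN D.nroots fun u => Nat.beq u r ||
      !(tb M u == tb M r && (Nat.beq (wd gT u) (wd gT r) &&
        L.all fun s => Nat.beq (T.aN s u) (T.aN s r) && Nat.beq (T.aN u s) (T.aN r s))))

/-- The table of heights with respect to a subsystem. -/
def gChk (M gT : ℕ) : Bool := allN D.nroots fun r => Nat.beq (wd gT r)
  (sumN D.nroots fun s => bif tb M s && T.ps s then T.aN s r else 0)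

/-- The mask of an involution. -/
def MChk (e M gT : ℕ) (L : List ℕ) : Prop :=
  (∀ r : Fin D.nroots, tb M r = true ↔ (RD.Good.eps e ⬝ᵥ T.rd.wt r) % 2 = 0) ∧
    (∀ i, (T.p i : ℕ) ∈ L) ∧ (T.gChk M gT && T.pinChk M gT L) = true

attribute [local instance 2000] Nat.decidableForallFin in
instance decMChk (e M gT : ℕ) (L : List ℕ) : Decidable (T.MChk e M gT L) := by
  unfold MChk; infer_instance

/-- The table of conjugations of involutions of the torus. -/
def RChk (S : List ℕ) (rk : ℕ) : Prop := ∀ e : Fin (2 ^ D.rank), e.1 = 0 ∨ e.1 ∈ S ∨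
  ∃ i : Fin D.rank, dg rk (e ^^^ 2 ^ i.1) < dg rk e ∧ (RD.Good.eps e ⬝ᵥ T.rd.wt (T.p i)) % 2 = 1

attribute [local instance 2000] Nat.decidableForallFin Nat.decidableExistsFin in
instance decRChk (S : List ℕ) (rk : ℕ) : Decidable (T.RChk S rk) := by
  unfold RChk; infer_instance

variable {T}

theorem mem_msk {M : ℕ} {r : Fin D.nroots} : r ∈ msk D M ↔ tb M r = true := by simp [msk]

theorem ps_iff (h1 : T.Small) {r : Fin D.nroots} : T.ps r = true ↔ 0 < T.rd.ht r := by
  rw [h1.1, sub_pos, Nat.cast_lt, ps, Nat.blt_eq]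

theorem pc_chain {G : T.rd.Good} (h1 : T.Small) (h2 : allN D.nroots T.chk2 = true) (q : ℕ)
    {cs : List (ℕ × ℕ × ℕ × List ℕ)} {M : ℕ} {K : Subgroup (Equiv.Perm (Fin D.nroots))}
    (h : T.chainChk M cs = true) (hK : G.Stage K (msk D M)) :
    T.rd.Pc q (msk D M) K = (cs.map fun c => (c.2.2.2.map (q ^ ·)).sum).prod := by
  induction cs generalizing M K with
  | nil =>
    obtain rfl := Nat.eq_of_beq_eq_true h
    have h3 : msk D 0 = ∅ := by ext r; simp [mem_msk, tb]
    rw [h3] at hK ⊢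
    exact hK.pc_empty q
  | cons c cs ih =>
    obtain ⟨lam, O, M', dl⟩ := c
    simp only [chainChk, stepChk, Bool.and_eq_true, allN_iff, anyN_iff, Bool.or_eq_true,
      Bool.not_eq_true', ← Bool.not_eq_true, ← imp_iff_not_or, Nat.blt_eq, Nat.ble_eq, Nat.beq_eq,
      decide_eq_true_eq, beq_iff_eq] at h
    obtain ⟨⟨h3, h4, h5, h6, h7⟩, h8⟩ := h
    lift lam to Fin D.nroots using h3
    have hA : ∀ r s : Fin D.nroots, T.rd.A r s = (T.aN r s : ℤ) - 3 := A_eq h2
    have h9 : (msk D M).filter (fun α => T.rd.A α lam = 0) = msk D M' := by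
      ext α
      rw [mem_filter, mem_msk, mem_msk, (h5 α α.2).1, hA, Bool.and_eq_true, Nat.beq_eq]
      exact and_congr_right fun _ => by omega
    have hd : ∀ α ∈ msk D M, 0 < T.rd.ht α → 0 ≤ T.rd.A α lam := fun α hα h => by
      have := ((h5 α α.2).2 (mem_msk.1 hα)).1 ((ps_iff h1).2 h)
      rw [hA]; omega
    rw [hK.step hd (O := msk D O) (mem_msk.2 h4) (fun α hα μ hμ => mem_msk.2 (by
      rw [σ_eq G h1 h2]; exact ((h5 α α.2).2 (mem_msk.1 hα)).2 μ μ.2 (mem_msk.1 hμ)))
      (fun μ hμ h => by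
        obtain ⟨α, h10, h11, h12, h13⟩ := (h6 μ μ.2 (mem_msk.1 hμ)).resolve_left
          fun h' => h (Fin.ext h')
        lift α to Fin D.nroots using h10
        exact ⟨α, mem_msk.2 h11, (ps_iff h1).1 h12, by rw [hA]; omega⟩),
      List.map_cons, List.prod_cons, h9, ih h8 (h9 ▸ hK.next hd), ← h7, selN_sum]
    refine congrArg (· * _) (sum_congr rfl fun μ _ => congrArg _ ?_)
    rw [cntN_eq, msk, filter_filter]
    refine congrArg _ (filter_congr fun α _ => ?_)
    rw [Bool.and_eq_true, Bool.and_eq_true, ps_iff h1, Nat.blt_eq, hA]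
    exact and_congr_right fun _ => and_congr_right fun _ => by omega

theorem ps_eq {e M gT : ℕ} {L : List ℕ} (h : T.MChk e M gT L) :
    T.rd.Ps (RD.Good.eps e) = msk D M := by
  ext r; simp [RD.Ps, mem_msk, h.1, Int.even_iff]

theorem stage (G : T.rd.Good) (h1 : T.Small) (h2 : allN D.nroots T.chk2 = true) {e M gT : ℕ}
    {L : List ℕ} (h : T.MChk e M gT L) :
    G.Stage (G.K0 (RD.Good.eps e)) (T.rd.Ps (RD.Good.eps e)) := by
  refine RD.Good.stage_K0 fun w hw h3 h4 i => ?_
  rw [ps_eq h] at h3 h4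
  obtain ⟨-, h5, h6⟩ := h
  simp only [gChk, Bool.and_eq_true, allN_iff, Nat.beq_eq, sumN_eq] at h6
  have hA : ∀ r s : Fin D.nroots, T.rd.A r s = (T.aN r s : ℤ) - 3 := A_eq h2
  have h7 : ∀ r : Fin D.nroots, (wd gT r : ℤ) = ∑ s ∈ T.rd.Pos ∩ msk D M, (T.rd.A s r + 3) :=
    fun r => by
    rw [h6.1 r r.2, Nat.cast_sum, ← univ_inter (_ ∩ _), ← filter_mem_eq_inter, sum_filter]
    refine sum_congr rfl fun s _ => ?_
    simp only [mem_inter, RD.mem_Pos, mem_msk, ← ps_iff h1, hA]
    cases tb M s <;> cases T.ps s <;> simp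
  have h8 : ∀ L : List ℕ, T.pinChk M gT L = true → ∀ r ∈ L, ∃ s : Fin D.nroots, s = r ∧ w s = s := by
    intro L h
    induction L with
    | nil => simp
    | cons r L ih =>
      simp only [pinChk, Bool.and_eq_true, allN_iff, Bool.or_eq_true, Bool.not_eq_true',
        ← Bool.not_eq_true, Nat.blt_eq, Nat.beq_eq, beq_iff_eq, List.all_eq_true] at h
      refine List.forall_mem_cons.2 ⟨?_, ih h.1⟩
      lift r to Fin D.nroots using h.2.1
      refine ⟨r, rfl, Fin.ext ((h.2.2 _ (w r).2).resolve_right (not_not.2 ⟨?_, ?_, fun s hs => ?_⟩))⟩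
      · simpa only [mem_msk, ← Bool.eq_iff_iff] using h3 r
      · zify; rw [h7, h7, sum_add_distrib, sum_add_distrib, h4]
      · obtain ⟨s, rfl, h9⟩ := ih h.1 s hs
        have h10 := RD.Good.A_W hw s r
        have h11 := RD.Good.A_W hw r s
        rw [h9, hA, hA] at h10 h11
        omega
  obtain ⟨s, h9, h10⟩ := h8 L h6.2 _ (h5 i)
  rwa [Fin.ext h9] at h10

theorem card_cent (G : T.rd.Good) (h1 : T.Small) (h2 : allN D.nroots T.chk2 = true)
    {e M gT a : ℕ} {L : List ℕ} {cs : List (ℕ × ℕ × ℕ × List ℕ)} (h : T.MChk e M gT L)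
    (h3 : (T.chainChk M cs && Nat.beq (cntN D.nroots fun s => T.ps s && tb M s) a) = true)
    {F : Type*} [Field F] [Finite F] (hF : (2 : F) ≠ 0) :
    Nat.card (G.G0 F ⊓ Subgroup.centralizer {T.rd.hT F (RD.sgn F (RD.Good.eps e))} : Subgroup _) =
      Nat.card F ^ a * (Nat.card F - 1) ^ D.rank *
        (cs.map fun c => (c.2.2.2.map (Nat.card F ^ ·)).sum).prod := by
  rw [Bool.and_eq_true, Nat.beq_eq, cntN_eq] at h3
  have h4 := stage G h1 h2 h
  rw [G.card_cent hF, Fintype.card_fin, ← h3.2]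
  rw [ps_eq h] at h4 ⊢
  rw [pc_chain h1 h2 _ h3.1 h4]
  congr 4
  ext r
  simp [RD.mem_Pos, mem_msk, ps_iff h1]

theorem invol_class (G : T.rd.Good) (h1 : T.Small) (h2 : allN D.nroots T.chk2 = true) {M gT rk : ℕ}
    {L S : List ℕ} (h : T.MChk 0 M gT L) (h3 : T.RChk S rk) {F : Type*} [Field F] [Finite F]
    (hF : (2 : F) ≠ 0) {t : GL (Fin D.rank ⊕ Fin D.nroots) F} (ht : t ∈ G.G0 F) (ht2 : t * t = 1)
    (ht1 : t ≠ 1) : ∃ e ∈ S, ∃ g ∈ G.G0 F, g⁻¹ * t * g = T.rd.hT F (RD.sgn F (RD.Good.eps e)) :=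
  RD.Good.invol_class hF (by
    have := stage G h1 h2 h
    rwa [show (RD.Good.eps 0 : Fin D.rank → ℤ) = 0 from funext fun i => by simp [RD.Good.eps]]
      at this) h3 ht ht2 ht1

end FT
end CfsgLib.Chev
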