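import Mathlib

/-! Homomorphisms out of `SL(2, F)` from Steinberg relations. -/

set_option autoImplicit false

namespace CfsgLib.Chev
open Matrix MatrixGroups

variable {F : Type*} [Field F]

/-- The matrix with given entries. -/
def mk2 (a b c d : F) (h : a * d - b * c = 1) : SL(2, F) := ⟨!![a, b; c, d], by rwa [det_fin_two_of]⟩

theorem mk2_ind {P : SL(2, F) → Prop} (h : ∀ a b c d h, P (mk2 a b c d h)) (g : SL(2, F)) : P g := by
  convert h (g 0 0) (g 0 1) (g 1 0) (g 1 1) (by rw [← det_fin_two, g.det_coe])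
  ext i j
  fin_cases i <;> fin_cases j <;> rfl

theorem mk2_mul {a b c d a' b' c' d' : F} (h h') : mk2 a b c d h * mk2 a' b' c' d' h' =
    mk2 (a * a' + b * c') (a * b' + b * d') (c * a' + d * c') (c * b' + d * d')
      (by linear_combination (a' * d' - b' * c') * h + h') := by
  exact Subtype.ext (mul_fin_two ..)

theorem mk2_congr {a b c d a' b' c' d' : F} {h h'} (h1 : a = a') (h2 : b = b') (h3 : c = c')
    (h4 : d = d') : mk2 a b c d h = mk2 a' b' c' d' h' := by
  subst h1 h2 h3 h4; rfl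

theorem mk2_one : mk2 (1 : F) 0 0 1 (by simp) = 1 := by
  ext i j
  fin_cases i <;> fin_cases j <;> simp [mk2]

theorem mk2_induction {P : SL(2, F) → Prop} (hu : ∀ s, P (mk2 1 s 0 1 (by simp)))
    (hl : ∀ s, P (mk2 1 0 s 1 (by simp))) (hm : ∀ A B, P A → P B → P (A * B)) (A : SL(2, F)) :
    P A := by
  refine SL2.transvection_induction P (fun i j hij c => ?_) hm A
  fin_cases i <;> fin_cases j
  · exact (hij rfl).elim
  · rw [show SpecialLinearGroup.transvection hij c = mk2 1 c 0 1 (by simp) by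
      ext i j; fin_cases i <;> fin_cases j <;> simp [mk2, SpecialLinearGroup.transvection_coe]]
    exact hu c
  · rw [show SpecialLinearGroup.transvection hij c = mk2 1 0 c 1 (by simp) by
      ext i j; fin_cases i <;> fin_cases j <;> simp [mk2, SpecialLinearGroup.transvection_coe]]
    exact hl c
  · exact (hij rfl).elim

theorem exists_sl2_hom {Γ : Type*} [Group Γ] (x : F → Γ) (h : Fˣ →* Γ) (n : Γ)
    (h1 : ∀ a b, x (a + b) = x a * x b) (h2 : ∀ (c : Fˣ) s, h c * x s = x (c ^ 2 * s) * h c)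
    (h3 : ∀ c, n * h c = h c⁻¹ * n) (h4 : n * n = h (-1))
    (h5 : ∀ c : Fˣ, n * x (c⁻¹ : Fˣ) = x (-c) * h c * n * x (-c) * n) :
    ∃ φ : SL(2, F) →* Γ, (∀ (a : Fˣ) b d H, φ (mk2 a b 0 d H) = x (a * b) * h a) ∧
      ∀ a b (c : Fˣ) d H, φ (mk2 a b c d H) = x (a / c) * h (-c⁻¹) * n * x (d / c) := by
  classical
  let f : SL(2, F) → Γ := fun g => if H : g 1 0 = 0 then x (g 0 0 * g 0 1) * h (Units.mk0 (g 0 0)
    fun H' => by simpa [H, H'] using (det_fin_two g.1).symm.trans g.det_coe) else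
    x (g 0 0 / g 1 0) * h (-(Units.mk0 _ H)⁻¹) * n * x (g 1 1 / g 1 0)
  have f1 : ∀ (a : Fˣ) b d H, f (mk2 a b 0 d H) = x (a * b) * h a := fun a b d H => by
    simp [f, mk2]
  have f2 : ∀ a b (c : Fˣ) d H, f (mk2 a b c d H) = x (a / c) * h (-c⁻¹) * n * x (d / c) :=
    fun a b c d H => by simp [f, mk2]
  have ind : ∀ P : SL(2, F) → Prop, (∀ (a : Fˣ) b d H, P (mk2 a b 0 d H)) →
      (∀ a b (c : Fˣ) d H, P (mk2 a b c d H)) → ∀ g, P g := fun P p1 p2 => mk2_ind fun a b c d H => by
    by_cases hc : c = 0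
    · subst hc
      exact p1 (Units.mk0 a fun H' => by simp [H'] at H) b d H
    · exact p2 a b (Units.mk0 c hc) d H
  have x0 : x 0 = 1 := by simpa using h1 0 0
  have hu : ∀ s g, f (mk2 1 s 0 1 (by simp) * g) = x s * f g := fun s => ind _ (fun a b d H => by
    rw [mk2_mul, mk2_congr (a' := (a : F)) (b' := b + s * d) (c' := 0) (d' := d)
      (h' := by simpa using H) (by ring) (by ring) (by ring) (by ring), f1, f1, ← mul_assoc, ← h1]
    congr 2
    linear_combination s * H) fun a b c d H => by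
    rw [mk2_mul, mk2_congr (a' := a + s * (c : F)) (b' := b + s * d) (c' := (c : F)) (d' := d)
      (h' := by linear_combination H) (by ring) (by ring) (by ring) (by ring), f2, f2]
    simp only [← mul_assoc, ← h1]
    congr 4
    field_simp
    ring
  have hw : ∀ g, f (mk2 0 1 (-1) 0 (by simp) * g) = n * f g := ind _ (fun a b d H => by
    rw [mk2_mul, mk2_congr (a' := (0 : F)) (b' := d) (c' := ((-a : Fˣ) : F)) (d' := -b)
      (h' := by simpa [mul_comm] using H) (by ring) (by ring) (by simp) (by ring), f1, f2, zero_div,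
      x0, one_mul, inv_neg, neg_neg, ← h3, mul_assoc, h2]
    congr 3
    simp only [Units.val_neg]
    field_simp) fun a b c d H => by
    by_cases ha : a = 0
    · rw [mk2_mul, mk2_congr (a' := (c : F)) (b' := d) (c' := 0) (d' := -b)
        (h' := by linear_combination H - d * ha) (by ring) (by ring) (by simp [ha]) (by ring), f1, f2,
        ha, zero_div, x0, one_mul, ← mul_assoc, ← mul_assoc, h3, mul_assoc _ n n, h4,
        ← map_mul, h2]
      congr 2
      · simp only [inv_neg, inv_inv, mul_neg, mul_one, neg_neg]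
        field_simp
      · simp
    obtain ⟨a, rfl⟩ : ∃ a' : Fˣ, a = a' := ⟨Units.mk0 a ha, rfl⟩
    rw [mk2_mul, mk2_congr (a' := (c : F)) (b' := d) (c' := ((-a : Fˣ) : F)) (d' := -b)
      (h' := by simp only [Units.val_neg]; linear_combination H) (by ring) (by ring) (by simp)
      (by ring), f2, f2, show (a : F) / c = ((c / a)⁻¹ : Fˣ) by simp]
    simp only [← mul_assoc, h5]
    rw [mul_assoc _ n (h _), h3, ← mul_assoc, mul_assoc _ n n, h4, mul_assoc _ (h _) (h _), ← map_mul,
      mul_assoc _ (h _) (x _), h2, ← mul_assoc, mul_assoc _ (x _) (x _), ← h1]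
    have h6 : ∀ (c : Fˣ) s, x s * h c = h c * x (s / c ^ 2) := fun c s => by
      rw [h2]; congr 2; field_simp
    rw [mul_assoc (_ * n) (x _) (h _), h6 (_ * _), ← mul_assoc, mul_assoc _ n (h _), h3, ← mul_assoc,
      mul_assoc _ (h _) (h _), ← map_mul]
    have ha := a.ne_zero
    have hc := c.ne_zero
    congr 2
    · congr 2
      · simp [div_neg]
      · simp [div_eq_mul_inv, mul_right_comm]
    · simp only [inv_neg, inv_inv, mul_neg, mul_one, neg_neg, Units.val_neg, Units.val_div_eq_div_val]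
      field_simp
      linear_combination -H
  have f0 : f 1 = 1 := by simpa [x0, mk2_one] using f1 1 0 1 (by simp)
  have hm : ∀ A B : SL(2, F), (∀ g, f (A * g) = f A * f g) → (∀ g, f (B * g) = f B * f g) →
      ∀ g, f (A * B * g) = f (A * B) * f g := fun A B hA hB g => by
    rw [mul_assoc, hA, hB, hA, mul_assoc]
  have pu : ∀ s g, f (mk2 1 s 0 1 (by simp) * g) = f (mk2 1 s 0 1 (by simp)) * f g := fun s g => by
    rw [hu, ← mul_one (mk2 1 s 0 1 _), hu, f0, mul_one]
  have pw : ∀ g, f (mk2 0 1 (-1) 0 (by simp) * g) = f (mk2 0 1 (-1) 0 (by simp)) * f g := fun g => by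
    rw [hw, ← mul_one (mk2 0 1 (-1) 0 _), hw, f0, mul_one]
  refine ⟨MonoidHom.mk' f (mk2_induction pu (fun c => ?_) hm), f1, f2⟩
  have := hm _ _ (hm _ _ (hm _ _ (hm _ _ pw (pu (-c))) pw) pw) pw
  simp only [mk2_mul] at this
  rwa [mk2_congr (a' := (1 : F)) (b' := 0) (c' := c) (d' := 1) (h' := by simp) (by ring) (by ring)
    (by ring) (by ring)] at this

end CfsgLib.Chev
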