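import Cfsg.Agent.Lib.Chev.Lie3
import Cfsg.Agent.Lib.Chev.SL2

/-! The Chevalley group over a field: root elements, torus, monomial elements, `SL₂` subgroups. -/

set_option autoImplicit false

namespace CfsgLib.Chev
open Matrix hiding zpow_add zpow_mul zpow_neg inv_zpow'
open MatrixGroups

namespace RD
variable {ι Φ : Type} [Fintype ι] [DecidableEq ι] [Fintype Φ] [DecidableEq Φ] {D : RD ι Φ}
  {F : Type*} [Field F]

/-- The value of a torus element on a weight. -/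
def ch (χ : ι → Fˣ) (μ : ι → ℤ) : Fˣ := ∏ i, χ i ^ μ i

section
omit [DecidableEq ι]

theorem ch_add (χ : ι → Fˣ) (μ ν : ι → ℤ) : ch χ (μ + ν) = ch χ μ * ch χ ν := by
  simp [ch, zpow_add, Finset.prod_mul_distrib]

theorem ch_zero (χ : ι → Fˣ) : ch χ 0 = 1 := by simp [ch]

theorem ch_zsmul (χ : ι → Fˣ) (k : ℤ) (μ : ι → ℤ) : ch χ (k • μ) = ch χ μ ^ k := by
  simp [ch, ← Finset.prod_zpow, ← zpow_mul, mul_comm]

theorem ch_sub (χ : ι → Fˣ) (μ ν : ι → ℤ) : ch χ (μ - ν) = ch χ μ / ch χ ν := by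
  rw [eq_div_iff_mul_eq', ← ch_add, sub_add_cancel]

theorem ch_mul (χ χ' : ι → Fˣ) (μ : ι → ℤ) : ch (χ * χ') μ = ch χ μ * ch χ' μ := by
  simp [ch, mul_zpow, Finset.prod_mul_distrib]

theorem ch_one (μ : ι → ℤ) : ch (1 : ι → Fˣ) μ = 1 := by simp [ch]

theorem ch_pow (c : Fˣ) (v μ : ι → ℤ) : ch (fun i => c ^ v i) μ = c ^ (v ⬝ᵥ μ) := by
  simp only [ch, ← zpow_mul, dotProduct]
  exact (map_prod (zpowersHom _ c) (fun i => Multiplicative.ofAdd (v i * μ i)) _).symm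

theorem ch_prod {κ : Type*} (s : Finset κ) (χ : κ → ι → Fˣ) (μ : ι → ℤ) :
    ch (∏ j ∈ s, χ j) μ = ∏ j ∈ s, ch (χ j) μ := by
  simp only [ch, Finset.prod_apply, ← Finset.prod_zpow]
  exact Finset.prod_comm

end

variable (D F) in
/-- The torus. -/
noncomputable def hT : (ι → Fˣ) →* GL (ι ⊕ Φ) F :=
  MonoidHom.toHomUnits
    { toFun χ := diagonal fun b => (ch χ (D.W b) : F)
      map_one' := by simp [ch_one]
      map_mul' χ χ' := by simp [ch_mul] }

theorem coe_hT (χ : ι → Fˣ) : (D.hT F χ).1 = diagonal fun b => (ch χ (D.W b) : F) := rfl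

variable (D) in
/-- The element `h_r(c)`. -/
noncomputable def hr (r : Φ) : Fˣ →* GL (ι ⊕ Φ) F :=
  (D.hT F).comp (MonoidHom.mk' (fun c i => c ^ D.co r i) fun _ _ => funext fun _ => mul_zpow ..)

theorem hr_apply (r : Φ) (c : Fˣ) : D.hr r c = D.hT F fun i => c ^ D.co r i := rfl

namespace Good
variable (G : D.Good)

/-- The root element `x_r(a)`. -/
def x (r : Φ) (a : F) : GL (ι ⊕ Φ) F :=
  ⟨D.X r a, D.X r (-a), by rw [G.X_add, add_neg_cancel, X_zero],
    by rw [G.X_add, neg_add_cancel, X_zero]⟩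

/-- The element `n_r`. -/
def n (r : Φ) : GL (ι ⊕ Φ) F := G.x r 1 * G.x (D.neg r) (-1) * G.x r 1

variable (F) in
/-- The Chevalley group. -/
def G0 : Subgroup (GL (ι ⊕ Φ) F) := Subgroup.closure {g | ∃ r a, g = G.x r a}

theorem x_add (r : Φ) (a b : F) : G.x r (a + b) = G.x r a * G.x r b :=
  Units.ext (G.X_add r a b).symm

theorem x_zero (r : Φ) : G.x r (0 : F) = 1 := Units.ext (X_zero r)

theorem x_neg (r : Φ) (a : F) : G.x r (-a) = (G.x r a)⁻¹ := Units.ext rfl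

theorem x_mem (r : Φ) (a : F) : G.x r a ∈ G.G0 F := Subgroup.subset_closure ⟨r, a, rfl⟩

theorem n_mem (r : Φ) : G.n r ∈ G.G0 F := mul_mem (mul_mem (G.x_mem _ _) (G.x_mem _ _)) (G.x_mem _ _)

theorem x_entry (r : Φ) (a : F) (u : Φ) (i : ι) :
    (G.x r a).1 (.inr u) (.inl i) = if u = r then -(a * D.wt r i) else 0 := by
  simp [x, X, E, M2, M3, Ez, M2z, M3z, apply_ite (Int.cast : ℤ → F)]

include G in
theorem eq_zero_of_mul_wt {r : Φ} {a : F} (h : ∀ i, a * D.wt r i = 0) : a = 0 := by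
  obtain ⟨s, hs⟩ := G.prim r
  rw [← mul_one a, ← Int.cast_one, ← hs, A, dotProduct, Int.cast_sum, Finset.mul_sum]
  exact Finset.sum_eq_zero fun i _ => by rw [Int.cast_mul, mul_left_comm, h, mul_zero]

theorem x_eq_one {r : Φ} {a : F} (h : G.x r a = 1) : a = 0 :=
  G.eq_zero_of_mul_wt fun i => by simpa [h] using (G.x_entry r a r i).symm

/-- Monomial elements. -/
structure Mon (g : GL (ι ⊕ Φ) F) (w : Equiv.Perm Φ) (c : Φ → Fˣ) : Prop where
  mem : w ∈ G.Wg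
  conj : ∀ s (a : F), g * G.x s a = G.x (w s) (c s * a) * g
  col : ∀ s, g.1 *ᵥ e (.inr s) = (c s : F) • e (.inr (w s))

variable {G} {g g' : GL (ι ⊕ Φ) F} {w w' : Equiv.Perm Φ} {c c' : Φ → Fˣ}

theorem Mon.mul (h : G.Mon g w c) (h' : G.Mon g' w' c') :
    G.Mon (g * g') (w * w') fun s => c (w' s) * c' s where
  mem := mul_mem h.mem h'.mem
  conj s a := by rw [mul_assoc, h'.conj, ← mul_assoc, h.conj, mul_assoc, Units.val_mul, mul_assoc]; rfl
  col s := by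
    rw [Units.val_mul, ← mulVec_mulVec, h'.col, mulVec_smul, h.col, smul_smul, mul_comm]; rfl

theorem Mon.inv (h : G.Mon g w c) : G.Mon g⁻¹ w⁻¹ fun s => (c (w⁻¹ s))⁻¹ where
  mem := inv_mem h.mem
  conj s a := by
    rw [inv_mul_eq_iff_eq_mul, ← mul_assoc, h.conj, mul_inv_cancel_right]
    simp
  col s := by
    have := congrArg (((c (w⁻¹ s))⁻¹ : Fˣ).1 • g⁻¹.1 *ᵥ ·) (h.col (w⁻¹ s))
    simp only [mulVec_mulVec, Units.inv_mul, one_mulVec, mulVec_smul, smul_smul, one_smul,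
      Equiv.Perm.inv_def, Equiv.apply_symm_apply] at this
    exact this.symm

theorem Mon.congr (h : G.Mon g w c) (h1 : w = w') (h2 : ∀ s, c s = c' s) : G.Mon g w' c' := by
  rwa [← h1, ← funext h2]

theorem Mon.unique (h : G.Mon g w c) (h' : G.Mon g w' c') : w = w' ∧ c = c' := by
  have h1 : ∀ s, w s = w' s ∧ c s = c' s := fun s => by
    have := congrFun ((h.col s).symm.trans (h'.col s)) (.inr (w s))
    by_cases h2 : w s = w' s
    · exact ⟨h2, Units.ext (by simpa [h2] using this)⟩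
    · simp [h2] at this
  exact ⟨Equiv.ext fun s => (h1 s).1, funext fun s => (h1 s).2⟩

theorem Mon.eq_one (h : G.Mon g 1 fun _ => 1) : g = 1 := by
  refine Units.ext (ext_of_mulVec_single ?_)
  have h1 : ∀ s, g.1 *ᵥ e (.inr s) = e (.inr s) := fun s => by simpa using h.col s
  rintro (i | s)
  · have := congrArg (·.1 *ᵥ e (.inr (D.neg (D.p i)))) (h.conj (D.p i) 1)
    simp only [Units.val_mul, ← mulVec_mulVec, x, h1, Units.val_one, mul_one, Equiv.Perm.one_apply,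
      G.X_neg, mulVec_sub, mulVec_add, mulVec_smul, one_smul, G.co_p, ← e_inl, sub_left_inj,
      add_right_inj] at this
    rw [this, Units.val_one, one_mulVec]
  · rw [h1, Units.val_one, one_mulVec]

theorem Mon.ext (h : G.Mon g w c) (h' : G.Mon g' w' c') (h1 : w = w') (h2 : ∀ s, c s = c' s) :
    g = g' :=
  (inv_mul_eq_one.1 ((h.inv.mul h').congr (by simp [h1]) (by simp [h1, h2])).eq_one)

theorem Mon.neg (h2 : (2 : F) ≠ 0) (h : G.Mon g w c) (s : Φ) : c (D.neg s) = (c s)⁻¹ := by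
  have h1 := fun a => congrFun (congrArg (·.1 *ᵥ e (.inr (D.neg s))) (h.conj s a)) (.inr (w s))
  simp only [Units.val_mul, ← mulVec_mulVec, x, h.col, G.X_neg, W_neg h.mem, mulVec_sub,
    mulVec_add, mulVec_smul, Pi.sub_apply, Pi.add_apply, Pi.smul_apply, hv, Sum.elim_inr,
    Pi.zero_apply, smul_eq_mul, Pi.single_eq_same] at h1
  refine eq_inv_of_mul_eq_one_left (Units.ext (mul_left_cancel₀ (mul_ne_zero h2 (c s).ne_zero) ?_))
  push_cast
  linear_combination h1 1 + h1 (-1)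

theorem Mon.conj' (h : G.Mon g w c) (s : Φ) (a : F) :
    g * G.x s a * g⁻¹ = G.x (w s) (c s * a) := by rw [h.conj, mul_inv_cancel_right]

variable (G)

theorem mon_hT (χ : ι → Fˣ) : G.Mon (D.hT F χ) 1 fun s => ch χ (D.wt s) where
  mem := one_mem _
  conj s a := by
    have h : ∀ {μ : ι → ℤ} {M : Matrix (ι ⊕ Φ) (ι ⊕ Φ) F}, D.Sup {μ} M →
        (D.hT F χ).1 * M = (ch χ μ : F) • M * (D.hT F χ).1 := fun {μ M} h => by
      ext b' b
      by_cases h1 : M b' b = 0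
      · simp [coe_hT, h1]
      · simp [coe_hT, ← show _ = μ from h _ _ h1, ch_sub]
        field_simp
    refine Units.ext ?_
    simp only [Units.val_mul, x, X, mul_add, add_mul, mul_smul_comm, smul_mul_assoc, mul_one, one_mul,
      h (G.sup_E s), h (G.sup_M2 s), h (G.sup_M3 s), ch_add, Equiv.Perm.one_apply]
    module
  col s := by
    rw [coe_hT, diagonal_mulVec_single, ← smul_eq_mul, Pi.single_smul']; rfl

theorem mon_one : G.Mon (1 : GL (ι ⊕ Φ) F) 1 fun _ => 1 := by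
  simpa [ch_one] using G.mon_hT (1 : ι → Fˣ)

theorem mon_hr (r : Φ) (c : Fˣ) : G.Mon (D.hr r c) 1 fun s => c ^ D.A r s :=
  (G.mon_hT _).congr rfl fun _ => ch_pow ..

theorem mon_n (r : Φ) : ∃ η : Φ → Fˣ, η r = -1 ∧ G.Mon (G.n r) (G.sg r) η := by
  choose η h1 h2 h3 using G.nM_conj (R := F) r
  refine ⟨fun s => Units.mk0 (η s) ((h1 s).map (Int.castRingHom F)).ne_zero, Units.ext ?_,
    G.sg_mem r, fun s a => Units.ext (h3 s a), h2⟩
  simpa [G.σ_self] using congrFun ((h2 r).symm.trans (G.nM_self r)) (.inr (D.neg r))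

include G in
theorem exists_ch (r : Φ) (c : Fˣ) : ∃ χ, ch χ (D.wt r) = c := by
  obtain ⟨s, hs⟩ := G.prim r
  exact ⟨_, by rw [ch_pow c (D.co s), ← A, hs, zpow_one]⟩

theorem nc_eq (r : Φ) (c : Fˣ) :
    G.x r (c : F) * G.x (D.neg r) (-(c⁻¹ : Fˣ) : F) * G.x r (c : F) = D.hr r c * G.n r := by
  obtain ⟨χ, rfl⟩ := G.exists_ch r c
  obtain ⟨η, -, h⟩ := G.mon_n (F := F) r
  have h1 := G.mon_hT χ
  rw [← ((h1.mul h).mul h1.inv).ext ((G.mon_hr r _).mul h) (by simp) fun s => by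
    simp only [inv_one, Equiv.Perm.one_apply, sg_apply, G.wt_σ, G.A_σ, G.A_self, ch_sub, ch_zsmul]
    rw [show D.A r s - D.A r s * 2 = -D.A r s by ring, zpow_neg, div_eq_mul_inv, mul_assoc,
      mul_assoc, ← mul_assoc _ (η s), mul_comm (_ * η s), mul_inv_cancel_left]]
  simp only [n, ← mul_assoc, h1.conj, mul_assoc _ (D.hT F χ) (G.x _ _), mul_inv_cancel_right,
    Equiv.Perm.one_apply, mul_one, mul_neg, G.wt_neg, ← zero_sub (D.wt r), ch_sub, ch_zero, one_div]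

theorem hr_mem (r : Φ) (c : Fˣ) : D.hr r c ∈ G.G0 F := by
  rw [← mul_inv_cancel_right (D.hr r c) (G.n r), ← G.nc_eq]
  exact mul_mem (mul_mem (mul_mem (G.x_mem _ _) (G.x_mem _ _)) (G.x_mem _ _)) (inv_mem (G.n_mem r))

theorem hT_mem (χ : ι → Fˣ) : D.hT F χ ∈ G.G0 F := by
  rw [← Finset.univ_prod_mulSingle χ]
  refine Finset.prod_induction _ (fun χ => D.hT F χ ∈ G.G0 F)
    (fun _ _ h h' => by rw [map_mul]; exact mul_mem h h') (by simp) fun i _ => ?_
  convert G.hr_mem (D.p i) (χ i) using 1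
  rw [hr_apply, G.co_p]
  congr 1
  ext j
  by_cases h : j = i <;> simp [h]

theorem exists_mon (hw : w ∈ G.Wg) : ∃ g ∈ G.G0 F, ∃ c, G.Mon g w c := by
  refine G.Wg_ind (P := fun w => ∃ g ∈ G.G0 F, ∃ c, G.Mon g w c) ⟨1, one_mem _, _, G.mon_one⟩ ?_ hw
  rintro r w - ⟨g, hg, c, h⟩
  obtain ⟨η, -, h1⟩ := G.mon_n (F := F) r
  exact ⟨_, mul_mem (G.n_mem r) hg, _, h1.mul h⟩

include G in
/-- Induction over the roots, starting from the simple roots. -/
theorem root_ind {P : Φ → Prop} (hp : ∀ i, P (D.p i)) (hn : ∀ s, P s → P (D.neg s))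
    (hσ : ∀ i s, P s → P (D.σ (D.p i) s)) (s : Φ) : P s := by
  have h : ∀ s, 0 < D.ht s → P s := fun s => by
    induction s using ht_ind (D := D) with | _ s ih
    intro hs
    obtain ⟨i, hi⟩ := G.desc s hs
    by_cases h : s = D.p i
    · exact h ▸ hp i
    have h1 := G.ht_σ (D.p i) s
    rw [G.A_p] at h1
    exact G.σ_σ (D.p i) s ▸ hσ i _ (ih _ (by linarith [mul_pos hi (G.ht_p i)])
      (by linarith [G.pos_p i s hs h]))
  rcases (G.ht_ne s).lt_or_gt with h1 | h1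
  · exact G.neg_neg s ▸ hn _ (h _ (by rwa [G.ht_neg, neg_pos]))
  · exact h s h1

variable {G}

theorem Mon.conj_n (h2 : (2 : F) ≠ 0) (h : G.Mon g w c) (r : Φ) :
    g * G.n r * g⁻¹ = D.hr (w r) (c r) * G.n (w r) := by
  rw [← G.nc_eq, n]
  simp only [← mul_assoc, h.conj, mul_assoc _ g (G.x _ _), mul_inv_cancel_right, mul_one, mul_neg,
    h.neg h2, W_neg h.mem]

theorem Mon.exists_hT (h2 : (2 : F) ≠ 0) (h : G.Mon g 1 c) : ∃ χ, g = D.hT F χ := by
  obtain ⟨lam, hl⟩ := G.unim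
  refine ⟨∏ j, fun i => c (D.p j) ^ lam j i, ?_⟩
  set χ := ∏ j, fun i => c (D.p j) ^ lam j i
  have h1 : ∀ i, ch χ (D.wt (D.p i)) = c (D.p i) := fun i => by
    simp [χ, ch_prod, ch_pow, hl, pow_ite]
  have h3 := h.mul (G.mon_hT χ).inv
  rw [inv_one, mul_one] at h3
  refine mul_inv_eq_one.1 (h3.congr rfl (G.root_ind (fun i => by simp [h1]) (fun s hs => ?_)
    fun i s hs => ?_)).eq_one
  · exact (h3.neg h2 s).trans (inv_eq_one.2 hs)
  · obtain ⟨η, -, h4⟩ := G.mon_n (F := F) (D.p i)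
    have h5 := h3.conj_n h2 (D.p i)
    simp only [Equiv.Perm.one_apply, h1, mul_inv_cancel, map_one, one_mul,
      mul_inv_eq_iff_eq_mul] at h5
    have h6 := congrFun ((h3.mul h4).unique (h5 ▸ h4.mul h3)).2 s
    simp only [Equiv.Perm.one_apply] at h6 hs
    rw [hs, mul_one, mul_eq_right] at h6
    exact h6

variable (G)

theorem x_neg_eq (r : Φ) (c : Fˣ) : G.x (D.neg r) (-(c⁻¹ : Fˣ) : F) =
    G.x r (-c : F) * D.hr r c * G.n r * G.x r (-c : F) := by
  rw [mul_assoc _ (D.hr r c), ← G.nc_eq, G.x_neg r]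
  group

theorem n_mul_x (r : Φ) (c : Fˣ) : G.n r * G.x r ((c⁻¹ : Fˣ) : F) =
    G.x r (-c : F) * D.hr r c * G.n r * G.x r (-c : F) * G.n r := by
  obtain ⟨η, h1, h⟩ := G.mon_n (F := F) r
  rw [h.conj, h1, sg_apply, G.σ_self, ← G.x_neg_eq]
  simp

theorem n_inv (r : Φ) : (G.n r)⁻¹ = D.hr r (-1 : Fˣ) * G.n r := by
  rw [← G.nc_eq, inv_neg, inv_one, Units.val_neg, Units.val_one, _root_.neg_neg]
  simp only [n, G.x_neg]
  group

theorem n_mul_n (r : Φ) : G.n r * G.n r = D.hr r (-1 : Fˣ) := by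
  have := G.n_inv (F := F) r
  rw [eq_comm, ← eq_mul_inv_iff_mul_eq, ← _root_.mul_inv_rev, ← inv_eq_iff_eq_inv, ← map_inv,
    inv_neg, inv_one] at this
  exact this.symm

theorem n_hr (r : Φ) (c : Fˣ) : G.n r * D.hr r c = D.hr r c⁻¹ * G.n r := by
  obtain ⟨η, h1, h⟩ := G.mon_n (F := F) r
  refine (h.mul (G.mon_hr r c)).ext ((G.mon_hr r c⁻¹).mul h) (by simp) fun s => ?_
  simp only [Equiv.Perm.one_apply, sg_apply, G.A_σ, G.A_self]
  rw [show D.A r s - D.A r s * 2 = -D.A r s by ring, inv_zpow', _root_.neg_neg, mul_comm]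

theorem exists_sl2 (r : Φ) : ∃ φ : SL(2, F) →* GL (ι ⊕ Φ) F,
    (∀ (a : Fˣ) b d H, φ (mk2 a b 0 d H) = G.x r (a * b) * D.hr r a) ∧
    (∀ a b (c : Fˣ) d H, φ (mk2 a b c d H) =
      G.x r (a / c) * D.hr r (-c⁻¹) * G.n r * G.x r (d / c)) ∧
    (∀ c H, φ (mk2 1 0 c 1 H) = G.x (D.neg r) c) := by
  obtain ⟨φ, h4, h5⟩ := exists_sl2_hom (F := F) (G.x r) (D.hr r) (G.n r) (G.x_add r)
    (fun c s => by rw [(G.mon_hr r c).conj, G.A_self, zpow_two, sq]; rfl) (G.n_hr r) (G.n_mul_n r)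
    (G.n_mul_x r)
  refine ⟨φ, h4, h5, fun c H => ?_⟩
  by_cases hc : c = 0
  · subst hc
    simpa [G.x_zero] using h4 1 0 1 H
  · obtain ⟨c, rfl⟩ : ∃ c' : Fˣ, c = c' := ⟨Units.mk0 c hc, rfl⟩
    simpa [h5] using (G.x_neg_eq r (-c⁻¹)).symm

include G in
theorem hT_injective : Function.Injective (D.hT F) := by
  refine (injective_iff_map_eq_one _).2 fun χ h => funext fun k => ?_
  have h1 := ((G.mon_hT χ).unique (h ▸ G.mon_one)).2
  obtain ⟨lam, hl⟩ := G.unim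
  have h2 : (of fun k j => D.wt (D.p j) k) * of lam = 1 := mul_eq_one_comm.1 (by
    ext j i
    simpa [mul_apply, one_apply, eq_comm, dotProduct] using hl i j)
  have h3 : ∑ j, lam j k • D.wt (D.p j) = Pi.single k 1 := by
    ext i
    simpa [mul_apply, one_apply, Pi.single_apply, mul_comm] using congrFun (congrFun h2 i) k
  have h4 : ch χ (∑ j, lam j k • D.wt (D.p j)) = 1 :=
    Finset.sum_induction _ (fun μ => ch χ μ = 1) (fun _ _ h h' => by rw [ch_add, h, h', one_mul])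
      (ch_zero χ) fun j _ => by rw [ch_zsmul, congrFun h1, _root_.one_zpow]
  rw [h3] at h4
  simpa [ch, Pi.single_apply, apply_ite (fun n : ℤ => χ _ ^ n)] using h4

end Good
end RD
end CfsgLib.Chev
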