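import Cfsg.Agent.Lib.Chev.Bruhat

/-! Every involution of the Chevalley group (odd characteristic) is conjugate into the torus. -/

set_option autoImplicit false

namespace CfsgLib.Chev
open Matrix hiding zpow_add zpow_add_one zpow_mul zpow_neg inv_zpow'
open MatrixGroups Subgroup Finset

namespace RD
variable {ι Φ : Type} [Fintype ι] [DecidableEq ι] [Fintype Φ] [DecidableEq Φ] {D : RD ι Φ}
  {F : Type*} [Field F]

variable (D) in
/-- The length function of a subsystem. -/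
def ell (Ψ : Finset Φ) (w : Equiv.Perm Φ) : ℕ := #(Ψ.filter fun r => 0 < D.ht r ∧ D.ht (w r) < 0)

namespace Good
variable {G : D.Good} {t m : GL (ι ⊕ Φ) F} {w : Equiv.Perm Φ} {c : Φ → Fˣ} {r : Φ}

theorem ell_lt {Ψ : Finset Φ} (hw : w ∈ G.Wg) (hr : r ∈ Ψ) (hΨ : ∀ s ∈ Ψ, D.σ r s ∈ Ψ)
    (h1 : 0 < D.ht r) (h2 : D.ht (w r) < 0) : D.ell Ψ (w * G.sg r) < D.ell Ψ w := by
  refine (card_le_card_of_injOn (t := (Ψ.filter fun r => 0 < D.ht r ∧ D.ht (w r) < 0).erase r)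
    (fun s => if 0 < D.ht (D.σ r s) then D.σ r s else s) (fun s hs => ?_) fun s hs s' hs' h => ?_).trans_lt
    (card_erase_lt_of_mem (mem_filter.2 ⟨hr, h1, h2⟩))
  · obtain ⟨h3, h4, h5⟩ := mem_filter.1 hs
    rw [Equiv.Perm.mul_apply, sg_apply] at h5
    simp only [coe_erase, Set.mem_diff, mem_coe, mem_filter, Set.mem_singleton_iff]
    split_ifs with h
    · refine ⟨⟨hΨ s h3, h, h5⟩, fun h6 => ?_⟩
      rw [← G.σ_σ r s, h6, G.σ_self, G.ht_neg] at h4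
      omega
    · rw [G.ht_σ] at h
      rw [ht_W_σ hw] at h5
      refine ⟨⟨h3, h4, by nlinarith⟩, fun h6 => ?_⟩
      rw [h6, G.A_self] at h5
      omega
  · have h3 := (mem_filter.1 hs).2.1
    have h4 := (mem_filter.1 hs').2.1
    simp only at h
    split_ifs at h with h5 h6 h6
    · exact (G.sg r).injective h
    · exact (h6 (by rwa [← h, G.σ_σ])).elim
    · exact (h5 (by rwa [h, G.σ_σ])).elim
    · exact h

theorem sg_comm (hw : w ∈ G.Wg) (h : w r = D.neg r) : G.sg r * w = w * G.sg r :=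
  Equiv.ext fun s => G.ht_inj (by
    simp only [Equiv.Perm.mul_apply, sg_apply, W_σ hw, h, G.ht_σ, G.A_neg_left, G.ht_neg]; ring)

theorem pos_of_simple (hw : w ∈ G.Wg) (h : ∀ i, 0 < D.ht (w (D.p i))) (s : Φ) :
    0 < D.ht s → 0 < D.ht (w s) := by
  induction s using ht_ind (D := D) with | _ s ih
  intro hs
  obtain ⟨i, hi⟩ := G.desc s hs
  by_cases h0 : s = D.p i
  · exact h0 ▸ h i
  have h1 := G.ht_σ (D.p i) s
  have h2 := ht_W_σ hw (D.p i) s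
  rw [G.A_p] at h1 h2
  linarith [ih (D.σ (D.p i) s) (by linarith [mul_pos hi (G.ht_p i)])
    (by linarith [G.pos_p i s hs h0]), mul_pos hi (h i)]

theorem neg_of_σ_p {i : ι} {s : Φ} (h : D.ht (G.sg (D.p i) s) < 0) : D.ht s < 0 ∨ s = D.p i := by
  rw [sg_apply, G.ht_σ, G.A_p] at h
  by_contra! h'
  linarith [G.pos_p i s (h'.1.lt_of_ne' (G.ht_ne s)) h'.2]

variable (h2 : (2 : F) ≠ 0)
include h2

theorem Mon.sl2_conj (hm : G.Mon m w c) (hr : w r = D.neg r) {φ : SL(2, F) →* GL (ι ⊕ Φ) F}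
    (h1 : ∀ (a : Fˣ) b d H, φ (mk2 a b 0 d H) = G.x r (a * b) * D.hr r a)
    (h3 : ∀ c H, φ (mk2 1 0 c 1 H) = G.x (D.neg r) c) {a b e d : F} {H} {k : SL(2, F)}
    (hk : mk2 d (e / c r) (c r * b) a (by field_simp; linear_combination H) = mk2 a b e d H * k) :
    ∃ g ∈ G.G0 F, g⁻¹ * m * g = φ k * m := by
  have h4 : ∀ s H, φ (mk2 1 s 0 1 H) = G.x r s := fun s H => by simpa using h1 1 s 1 H
  let τ : SL(2, F) → SL(2, F) := fun g => mk2 (g 1 1) (g 1 0 / c r) (c r * g 0 1) (g 0 0)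
    (by field_simp; linear_combination (det_fin_two g.1).symm.trans g.det_coe)
  have h5 : ∀ g, m * φ g = φ (τ g) * m := mk2_induction (fun s => by
    rw [h4, hm.conj, hr, ← h3 _ (by simp)]
    exact congrArg (φ · * m) (mk2_congr rfl (zero_div _).symm rfl rfl)) (fun s => by
    rw [h3, hm.conj, W_neg hm.mem, hr, G.neg_neg, hm.neg h2, ← h4 _ (by simp)]
    exact congrArg (φ · * m) (mk2_congr rfl (by simp [mk2, inv_mul_eq_div]) (mul_zero _).symm rfl))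
    fun A B hA hB => by
    rw [map_mul, ← mul_assoc, hA, mul_assoc, hB, ← mul_assoc, ← map_mul]
    congr 2
    induction A using mk2_ind
    induction B using mk2_ind
    simp only [τ, mk2_mul]
    refine mk2_congr ?_ ?_ ?_ ?_ <;> simp [mk2] <;> field_simp <;> ring
  refine ⟨φ (mk2 a b e d H), mk2_induction (P := fun g => φ g ∈ G.G0 F)
    (fun s => (h4 s _).symm ▸ G.x_mem _ _) (fun s => (h3 s _).symm ▸ G.x_mem _ _)
    (fun A B hA hB => (map_mul φ A B).symm ▸ mul_mem hA hB) _, ?_⟩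
  rw [mul_assoc, h5, show τ _ = _ from hk, map_mul, mul_assoc, inv_mul_cancel_left]

theorem Mon.iso (hm : G.Mon m w c) (hr : w r = D.neg r) {e : Fˣ} (he : c r = e * e) :
    ∃ g ∈ G.G0 F, g⁻¹ * m * g = D.hr r e⁻¹ * G.n r * m := by
  obtain ⟨φ, h1, h3, h4⟩ := G.exists_sl2 (F := F) r
  have := e.ne_zero
  have := hm.sl2_conj h2 hr h1 h4 (a := 1) (b := -1 / (2 * e)) (e := e) (d := 1 / 2)
    (H := by field_simp; ring) (k := mk2 0 e⁻¹ (-e : Fˣ) 0 (by simp)) (by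
      rw [mk2_mul]
      refine mk2_congr ?_ ?_ ?_ ?_ <;> simp [he] <;> field_simp)
  rw [h3] at this
  simpa [G.x_zero] using this

theorem Mon.twist [Finite F] (hm : G.Mon m w c) (hr : w r = D.neg r) (d : Fˣ) :
    ∃ g ∈ G.G0 F, g⁻¹ * m * g = D.hr r d * m := by
  obtain ⟨φ, h1, -, h4⟩ := G.exists_sl2 (F := F) r
  have := Fintype.ofFinite F
  have hd := d.ne_zero
  obtain ⟨a, b, hab⟩ := FiniteField.exists_root_sum_quadratic (R := F)
    (f := Polynomial.C (d ^ 2 : F) * .X ^ 2) (g := Polynomial.C (-c r : F) * .X ^ 2 - .C (d : F))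
    (Polynomial.degree_C_mul_X_pow _ (by simp)) (by
      rw [Polynomial.degree_sub_C (by rw [Polynomial.degree_C_mul_X_pow _ (by simp)]; norm_num),
        Polynomial.degree_C_mul_X_pow _ (by simp)]; rfl)
    (FiniteField.odd_card_of_char_ne_two fun h => h2 (by
      simpa [h] using ringChar.Nat.cast_ringChar (R := F)))
  simp only [Polynomial.eval_mul, Polynomial.eval_C, Polynomial.eval_pow, Polynomial.eval_X,
    Polynomial.eval_sub] at hab
  have := hm.sl2_conj h2 hr h1 h4 (a := a) (b := b) (e := c r * b / d) (d := a * d)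
    (H := by field_simp; linear_combination hab) (k := mk2 d 0 0 d⁻¹ (by simp)) (by
      rw [mk2_mul]
      refine mk2_congr ?_ ?_ ?_ ?_ <;> simp <;> field_simp)
  simpa [h1, G.x_zero] using this

theorem Mon.sq_step (hm : G.Mon m w c) (hr : w r = r) :
    G.n r * m * (G.n r * m) = D.hr r (-(c r)⁻¹) * (m * m) := by
  rw [mul_assoc, ← mul_assoc m, mul_inv_eq_iff_eq_mul.1 (hm.conj_n h2 r), hr, ← mul_neg_one,
    map_mul, ← G.n_mul_n, ← mul_assoc _ (G.n r), ← G.n_hr]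
  simp only [mul_assoc]

theorem sq_red {J : ι → Prop} (hJ : ∀ j k, J j → J k → j ≠ k → D.wt (D.p k) j = 0)
    (hm : G.Mon m w c) (h3 : ∀ j, J j → w (D.p j) = D.p j ∨ w (D.p j) = D.neg (D.p j))
    (h4 : ∀ k, D.ht (w (D.p k)) < 0 → J k) {j : ι} (hj : D.ht (w (D.p j)) < 0) :
    ∃ m' w' c', G.Mon m' w' c' ∧ D.ell univ w' < D.ell univ w ∧
      (∀ j, J j → w' (D.p j) = D.p j ∨ w' (D.p j) = D.neg (D.p j)) ∧ w' (D.p j) = D.p j ∧
      (∀ k, D.ht (w' (D.p k)) < 0 → D.ht (w (D.p k)) < 0) ∧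
      m * m = D.hr (D.p j) (c (D.p j))⁻¹ * (m' * m') := by
  have h5 := (h3 j (h4 j hj)).resolve_left fun h => by linarith [G.ht_p j, h ▸ hj]
  obtain ⟨η, hη, hn⟩ := G.mon_n (F := F) (D.p j)
  have h6 := hn.inv.mul hm
  rw [sg_inv] at h6
  have h7 : (G.sg (D.p j) * w) (D.p j) = D.p j := by
    rw [Equiv.Perm.mul_apply, h5, ← G.σ_self, sg_apply, G.σ_σ]
  refine ⟨_, _, _, h6, ?_, fun k hk => if h : k = j then .inl (h ▸ h7) else ?_, h7,
    fun k hk => (neg_of_σ_p (G := G) hk).resolve_right fun h => ?_, ?_⟩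
  · rw [sg_comm hm.mem h5]
    exact ell_lt hm.mem (mem_univ _) (by simp) (G.ht_p j) hj
  · have := hJ j k (h4 j hj) hk (Ne.symm h)
    rw [show (G.sg (D.p j) * w) (D.p k) = w (D.p k) from G.ht_inj (by
      rw [Equiv.Perm.mul_apply, sg_apply, G.ht_σ]
      rcases h3 k hk with h | h <;> simp [h, G.A_neg_right, G.A_p, this])]
    exact h3 k hk
  · rw [← G.neg_neg (D.p j), ← h5, ← W_neg hm.mem, w.injective.eq_iff] at h
    linarith [G.ht_p k, G.ht_p j, G.ht_neg (D.p j), congrArg D.ht h]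
  · simpa [h5, ← G.σ_self, sg_apply, G.σ_σ, hη] using h6.sq_step h2 h7

variable (hpin : ∀ w ∈ G.Wg, (∀ r, 0 < D.ht r → 0 < D.ht (w r)) → w = 1)
include hpin

theorem sq_aux {J : ι → Prop} (hJ : ∀ j k, J j → J k → j ≠ k → D.wt (D.p k) j = 0) :
    ∀ (l : ℕ) {m : GL (ι ⊕ Φ) F} {w : Equiv.Perm Φ} {c : Φ → Fˣ}, G.Mon m w c →
    D.ell univ w = l → (∀ j, J j → w (D.p j) = D.p j ∨ w (D.p j) = D.neg (D.p j)) →
    (∀ k, D.ht (w (D.p k)) < 0 → J k) → ∃ χ, m * m = D.hT F χ ∧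
      ∀ i, 0 < D.ht (w (D.p i)) → IsSquare (χ i) := by
  intro l
  induction l using Nat.strong_induction_on with | _ l ih
  intro m w c hm hl h3 h4
  by_cases h : ∀ i, 0 < D.ht (w (D.p i))
  · obtain rfl := hpin w hm.mem (pos_of_simple hm.mem h)
    obtain ⟨χ, rfl⟩ := hm.exists_hT h2
    exact ⟨χ * χ, (map_mul _ _ _).symm, fun i _ => ⟨_, rfl⟩⟩
  obtain ⟨j, hj⟩ := not_forall.1 h
  replace hj := (not_lt.1 hj).lt_of_ne (G.ht_ne _)
  obtain ⟨m', w', c', h5, h6, h7, -, h8, h9⟩ := sq_red h2 hJ hm h3 h4 hj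
  obtain ⟨χ, h10, h11⟩ := ih _ (hl ▸ h6) h5 rfl h7 fun k hk => h4 k (h8 k hk)
  rw [h10, hr_apply, ← map_mul] at h9
  refine ⟨_, h9, fun i hi => ?_⟩
  simpa [G.co_p, show i ≠ j from fun h => by linarith [h ▸ hi]] using
    h11 i ((G.ht_ne _).lt_or_gt.resolve_left fun h => by linarith [h8 i h])

theorem mon_conj [Finite F] : ∀ (l : ℕ) {m : GL (ι ⊕ Φ) F} {w : Equiv.Perm Φ} {c : Φ → Fˣ},
    G.Mon m w c → D.ell univ w = l → m * m = 1 → ∃ g ∈ G.G0 F, ∃ χ, g⁻¹ * m * g = D.hT F χ := by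
  intro l
  induction l using Nat.strong_induction_on with | _ l ih
  intro m w c hm hl hm2
  have red : ∀ {m m' : GL (ι ⊕ Φ) F}, m * m = 1 → (∃ g ∈ G.G0 F, g⁻¹ * m * g = m') →
      (m' * m' = 1 → ∃ g ∈ G.G0 F, ∃ χ, g⁻¹ * m' * g = D.hT F χ) →
      ∃ g ∈ G.G0 F, ∃ χ, g⁻¹ * m * g = D.hT F χ := by
    rintro m _ hm2 ⟨g, hg, rfl⟩ h
    obtain ⟨g', hg', χ, h⟩ := h (by rw [← inv_inv g, inv_inv g⁻¹, conj_mul, hm2]; simp)
    exact ⟨g * g', mul_mem hg hg', χ, by rw [← h]; group⟩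
  by_cases h : ∀ i, 0 < D.ht (w (D.p i))
  · obtain rfl := hpin w hm.mem (pos_of_simple hm.mem h)
    exact ⟨1, one_mem _, by simpa using hm.exists_hT h2⟩
  by_cases h3 : ∀ i, D.ht (w (D.p i)) < 0 → w (D.p i) = D.neg (D.p i)
  swap
  · obtain ⟨i, hi, h3⟩ := by simpa only [not_forall] using h3
    obtain ⟨η, -, hn⟩ := G.mon_n (F := F) (D.p i)
    refine red hm2 ⟨_, G.n_mem (D.p i), rfl⟩ (ih _ ?_ ((hn.inv.mul hm).mul hn) rfl)
    refine lt_of_le_of_lt (card_le_card (monotone_filter_right _ fun r _ hr => ⟨hr.1, ?_⟩))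
      (hl ▸ ell_lt hm.mem (mem_univ _) (by simp) (G.ht_p i) hi)
    refine (neg_of_σ_p (G := G) hr.2).resolve_right fun h4 => h3 ?_
    have h5 : w (D.p i) = G.sg (D.p i) r := (congrArg w h4).symm.trans
      (congrFun (congrArg DFunLike.coe ((hm.mul hm).unique (hm2 ▸ G.mon_one)).1) _)
    have h6 := (neg_of_σ_p (h5 ▸ hi)).resolve_left hr.1.not_gt
    rw [h5, h6, sg_apply, G.σ_self]
  have key : ∀ {m : GL (ι ⊕ Φ) F} {c : Φ → Fˣ} (i : ι), G.Mon m w c → m * m = 1 →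
      D.ht (w (D.p i)) < 0 → IsSquare (c (D.p i)) → ∃ g ∈ G.G0 F, ∃ χ, g⁻¹ * m * g = D.hT F χ := by
    rintro m c i hm hm2 hi ⟨e, he⟩
    obtain ⟨η, -, hn⟩ := G.mon_n (F := F) (D.p i)
    refine red hm2 (hm.iso h2 (h3 i hi) he) (ih _ ?_ (((G.mon_hr _ _).mul hn).mul hm) rfl)
    rw [one_mul, sg_comm hm.mem (h3 i hi), ← hl]
    exact ell_lt hm.mem (mem_univ _) (by simp) (G.ht_p i) hi
  by_cases h4 : ∃ i j, D.ht (w (D.p i)) < 0 ∧ D.ht (w (D.p j)) < 0 ∧ Odd (D.wt (D.p j) i)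
  · obtain ⟨i, j, hi, hj, k, hk⟩ := h4
    refine red hm2 (hm.twist h2 (h3 i hi) (c (D.p j))) fun h4 =>
      key j (((G.mon_hr _ _).mul hm).congr (one_mul _) fun _ => rfl) h4 hj ⟨c (D.p j) ^ (-k), ?_⟩
    simp only [h3 j hj, G.A_neg_right, G.A_p, hk]
    rw [← zpow_add_one, ← zpow_add]
    congr 1
    ring
  obtain ⟨j, hj⟩ := not_forall.1 h
  replace hj := (not_lt.1 hj).lt_of_ne (G.ht_ne _)
  have hJ : ∀ j k, D.ht (w (D.p j)) < 0 → D.ht (w (D.p k)) < 0 → j ≠ k → D.wt (D.p k) j = 0 :=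
    fun j k hj hk hjk => (G.odd j k hjk).resolve_right fun h =>
      h.elim (fun h => h4 ⟨j, k, hj, hk, h⟩) fun h => h4 ⟨k, j, hk, hj, h⟩
  obtain ⟨m', w', c', h5, -, h7, h8, h9, h10⟩ :=
    sq_red h2 hJ hm (fun j hj => .inr (h3 j hj)) (fun _ h => h) hj
  obtain ⟨χ, h11, h12⟩ := sq_aux h2 hpin hJ _ h5 rfl h7 h9
  rw [h11, hr_apply, ← map_mul, hm2, ← map_one (D.hT F), G.hT_injective.eq_iff] at h10
  refine key j hm hm2 hj ?_
  have h13 := congrFun h10 j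
  simp only [G.co_p, Pi.one_apply, Pi.mul_apply, Pi.single_eq_same, zpow_one,
    eq_inv_mul_iff_mul_eq, mul_one] at h13
  exact h13 ▸ h12 j (h8.symm ▸ G.ht_p j)

theorem invol_conj [Finite F] (ht : t ∈ G.G0 F) (ht2 : t * t = 1) :
    ∃ g ∈ G.G0 F, ∃ χ, g⁻¹ * t * g = D.hT F χ := by
  obtain ⟨u, hu, m, w, c, hm, y, hy, rfl⟩ := bruhat h2 ht
  have hv := mul_mem (U_mono (filter_subset _ _) hy) hu
  have h1 : y * u * m * 1 = 1 * m⁻¹ * (y * u)⁻¹ := by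
    rw [mul_one, one_mul, ← _root_.mul_inv_rev, eq_inv_iff_mul_eq_one, ← conj_eq_one_iff (a := y⁻¹),
      ← ht2]
    group
  have h3 := bruhat_mon h2 hv (one_mem _) hm hm.inv (one_mem _) (inv_mem hv) h1
  obtain ⟨g, hg, χ, h4⟩ := mon_conj h2 hpin _ hm rfl (eq_inv_iff_mul_eq_one.1 h3)
  have := Fintype.ofFinite F
  obtain ⟨k, hk⟩ : Odd (Nat.card (G.U F D.Pos)) := by
    rw [card_U' cl_Pos, Nat.card_eq_fintype_card]
    exact (Nat.odd_iff.2 (FiniteField.odd_card_of_char_ne_two fun h => h2 (by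
      simpa [h] using ringChar.Nat.cast_ringChar (R := F)))).pow
  have h5 : (y * u) ^ (2 * k + 1) = 1 := by
    rw [← hk]; exact congrArg Subtype.val (pow_card_eq_one' (x := (⟨_, hv⟩ : G.U F D.Pos)))
  have h6 : m * (y * u) ^ (k + 1) = (y * u)⁻¹ ^ (k + 1) * m := by
    refine (SemiconjBy.pow_right ?_ _).eq
    rw [mul_one, one_mul, ← h3] at h1
    rw [SemiconjBy, eq_inv_mul_iff_mul_eq, ← mul_assoc, h1, inv_mul_cancel_right]
  refine ⟨y⁻¹ * (y * u) ^ (k + 1) * g, mul_mem (mul_mem (inv_mem (U_le hy))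
    (pow_mem (U_le hv) _)) hg, χ, ?_⟩
  rw [← h4, show (y⁻¹ * (y * u) ^ (k + 1) * g)⁻¹ * (u * m * y) * (y⁻¹ * (y * u) ^ (k + 1) * g) =
    g⁻¹ * (((y * u) ^ (k + 1))⁻¹ * (y * u) * (m * (y * u) ^ (k + 1))) * g by
      generalize (y * u) ^ (k + 1) = z; group, h6, ← mul_assoc _ _ m,
    show ((y * u) ^ (k + 1))⁻¹ * (y * u) * (y * u)⁻¹ ^ (k + 1) = ((y * u) ^ (2 * k + 1))⁻¹ by
      generalize y * u = z; group, h5, inv_one, one_mul]

end Good
end RD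
end CfsgLib.Chev
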