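import Mathlib

/-! Abstract Chevalley data: the Lie algebra with a Chevalley basis and its root elements. -/

set_option autoImplicit false

namespace CfsgLib.Chev
open Matrix

/-- Tables of a Chevalley basis: weights and coroots of the roots, negation, addition, structure
constants, simple roots, the lowest root, a height functional and an invariant form. -/
structure RD (ι Φ : Type) where
  wt : Φ → ι → ℤ
  co : Φ → ι → ℤ
  neg : Φ → Φ
  add : Φ → Φ → Φ
  N : Φ → Φ → ℤ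
  p : ι → Φ
  r0 : Φ
  fv : ι → ℤ
  len : Φ → ℤ
  B : Matrix ι ι ℤ

namespace RD
variable {ι Φ : Type} [Fintype ι] [DecidableEq ι] [Fintype Φ] [DecidableEq Φ] (D : RD ι Φ)

/-- Cartan integers. -/
def A (r s : Φ) : ℤ := D.co r ⬝ᵥ D.wt s

/-- The height of a root. -/
def ht (r : Φ) : ℤ := D.fv ⬝ᵥ D.wt r

/-- Weights of the basis vectors. -/
def W : ι ⊕ Φ → ι → ℤ := Sum.elim 0 D.wt

/-- The checkable properties of the tables. -/
structure Good : Prop where
  ht_inj : Function.Injective D.ht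
  wt_neg : ∀ r, D.wt (D.neg r) = -D.wt r
  co_neg : ∀ r, D.co (D.neg r) = -D.co r
  A_self : ∀ r, D.A r r = 2
  wt_add : ∀ r s, D.N r s ≠ 0 → D.wt (D.add r s) = D.wt r + D.wt s
  N_self : ∀ r, D.N r r = 0
  N_neg : ∀ r, D.N r (D.neg r) = 0
  add_ne : ∀ r s, D.N r s ≠ 0 → D.add r s ≠ D.neg r
  N_anti : ∀ r s, D.N s r = -D.N r s
  jac1 : ∀ r, (r = D.r0 ∨ ∃ i, r = D.p i) → ∀ s u,
    D.N s u * D.N r (D.add s u) - (if u = D.neg s then D.A s r else 0) -
      (D.N r u * D.N s (D.add r u) - (if u = D.neg r then D.A r s else 0)) =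
      D.N r s * D.N (D.add r s) u + (if s = D.neg r then D.A r u else 0)
  jac2 : ∀ r, (r = D.r0 ∨ ∃ i, r = D.p i) → ∀ s u i,
    (if D.add s u = D.neg r then D.N s u else 0) * D.co r i -
      (if D.add r u = D.neg s then D.N r u else 0) * D.co s i =
      (if u = D.neg (D.add r s) then D.N r s else 0) * D.co (D.add r s) i
  gen : ∀ u, u = D.r0 ∨ (∃ i, u = D.p i) ∨ ∃ i s, D.N (D.p i) s ≠ 0 ∧ D.add (D.p i) s = u
  dvd2 : ∀ r s, 2 ∣ D.N r s * D.N r (D.add r s)
  dvd6 : ∀ r s, 6 ∣ D.N r s * D.N r (D.add r s) * D.N r (D.add r (D.add r s))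
  nil : ∀ r s, D.N r s * D.N r (D.add r s) * D.N r (D.add r (D.add r s)) *
    D.N r (D.add r (D.add r (D.add r s))) = 0
  co_p : ∀ i, D.co (D.p i) = Pi.single i 1
  ht_p : ∀ i, 0 < D.ht (D.p i)
  pos_p : ∀ i r, 0 < D.ht r → r ≠ D.p i → D.wt r i * D.ht (D.p i) < D.ht r
  desc : ∀ r, 0 < D.ht r → ∃ i, 0 < D.wt r i
  prim : ∀ r, ∃ s, D.A s r = 1
  unim : ∃ lam : ι → ι → ℤ, ∀ i j, lam j ⬝ᵥ D.wt (D.p i) = if i = j then 1 else 0
  odd : ∀ i j, i ≠ j → D.wt (D.p j) i = 0 ∨ Odd (D.wt (D.p j) i) ∨ Odd (D.wt (D.p i) j)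
  len_pos : ∀ r, 0 < D.len r
  B_symm : D.B.IsSymm
  co_B : ∀ r, D.len r • D.co r = D.B *ᵥ D.wt r

/-- Integer matrix of `ad e_r`. -/
def Ez (r : Φ) : ι ⊕ Φ → ι ⊕ Φ → ℤ
  | .inl _, .inl _ => 0
  | .inr u, .inl i => if u = r then -D.wt r i else 0
  | .inl i, .inr s => if s = D.neg r then D.co r i else 0
  | .inr u, .inr s => if u = D.add r s then D.N r s else 0

/-- Integer matrix of `(ad e_r)^2 / 2`. -/
def M2z (r : Φ) : ι ⊕ Φ → ι ⊕ Φ → ℤ
  | .inr u, .inr s => (if s = D.neg r then if u = r then -1 else 0 else 0) +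
      if u = D.add r (D.add r s) then D.N r s * D.N r (D.add r s) / 2 else 0
  | _, _ => 0

/-- Integer matrix of `(ad e_r)^3 / 6`. -/
def M3z (r : Φ) : ι ⊕ Φ → ι ⊕ Φ → ℤ
  | .inr u, .inr s => if u = D.add r (D.add r (D.add r s)) then
      D.N r s * D.N r (D.add r s) * D.N r (D.add r (D.add r s)) / 6 else 0
  | _, _ => 0

section defs
variable (R : Type*) [CommRing R]

/-- `ad e_r`. -/
def E (r : Φ) : Matrix (ι ⊕ Φ) (ι ⊕ Φ) R := of fun b' b => D.Ez r b' b

/-- `(ad e_r)^2 / 2`. -/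
def M2 (r : Φ) : Matrix (ι ⊕ Φ) (ι ⊕ Φ) R := of fun b' b => D.M2z r b' b

/-- `(ad e_r)^3 / 6`. -/
def M3 (r : Φ) : Matrix (ι ⊕ Φ) (ι ⊕ Φ) R := of fun b' b => D.M3z r b' b

variable {R}

/-- The root element `x_r(t)`. -/
def X (r : Φ) (t : R) : Matrix (ι ⊕ Φ) (ι ⊕ Φ) R :=
  1 + t • D.E R r + t ^ 2 • D.M2 R r + t ^ 3 • D.M3 R r

/-- The adjoint representation. -/
def ad : (ι ⊕ Φ → R) →ₗ[R] Matrix (ι ⊕ Φ) (ι ⊕ Φ) R :=
  Fintype.linearCombination R (Sum.elim (fun i => diagonal fun b => (D.W b i : R)) (D.E R))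

end defs

/-- Basis vectors. -/
abbrev e {R : Type*} [CommRing R] (b : ι ⊕ Φ) : ι ⊕ Φ → R := Pi.single b 1

/-- Vectors in the Cartan part. -/
def hv {R : Type*} [CommRing R] (c : ι → ℤ) : ι ⊕ Φ → R := Sum.elim (fun i => c i) 0

variable {R : Type*} [CommRing R]

theorem map_X {S : Type*} [CommRing S] (φ : R →+* S) (r : Φ) (t : R) :
    φ.mapMatrix (D.X r t) = D.X r (φ t) := by
  ext b' b
  simp [X, E, M2, M3, one_apply, apply_ite φ]

theorem ad_inr (s : Φ) : D.ad (e (.inr s)) = D.E R s := by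
  simp [ad, Fintype.linearCombination_apply_single]

theorem ad_inl (i : ι) : D.ad (e (.inl i) : _ → R) = diagonal fun b => (D.W b i : R) := by
  simp [ad, Fintype.linearCombination_apply_single]

theorem ad_hv (c : ι → ℤ) :
    D.ad (hv c : _ → R) = diagonal fun b => ((c ⬝ᵥ D.W b : ℤ) : R) := by
  ext b' b
  by_cases h : b' = b <;>
    simp [ad, Fintype.linearCombination_apply, hv, dotProduct, Matrix.sum_apply, diagonal_apply, h]

theorem E_inl (r : Φ) (i : ι) : D.E R r *ᵥ e (.inl i) = -(D.wt r i : R) • e (.inr r) := by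
  ext (j | u) <;> simp [E, Ez, Pi.single_apply, apply_ite (Int.cast : ℤ → R)]

theorem E_inr (r s : Φ) : D.E R r *ᵥ e (.inr s) =
    (D.N r s : R) • e (.inr (D.add r s)) + if s = D.neg r then hv (D.co r) else 0 := by
  ext (j | u) <;> split_ifs with h <;>
    simp [E, Ez, hv, h, Pi.single_apply, apply_ite (Int.cast : ℤ → R)]

theorem E_hv (r : Φ) (c : ι → ℤ) :
    D.E R r *ᵥ hv c = -((c ⬝ᵥ D.wt r : ℤ) : R) • e (.inr r) := by
  ext (j | u)
  · simp [E, Ez, hv, mulVec, dotProduct]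
  · by_cases h : u = r <;> simp [E, Ez, hv, mulVec, dotProduct, h, mul_comm]

/-- Derivations. -/
def Der (M : Matrix (ι ⊕ Φ) (ι ⊕ Φ) R) : Prop := ∀ y, M * D.ad y = D.ad y * M + D.ad (M *ᵥ y)

/-- Automorphisms. -/
def Aut (M : Matrix (ι ⊕ Φ) (ι ⊕ Φ) R) : Prop := ∀ y, M * D.ad y = D.ad (M *ᵥ y) * M

/-- Indicator vector of a weight. -/
def V (μ : ι → ℤ) : ι ⊕ Φ → R := Sum.elim 0 fun v => if D.wt v = μ then 1 else 0

variable {D}

theorem Aut.mul {g h : Matrix (ι ⊕ Φ) (ι ⊕ Φ) R} (hg : D.Aut g) (hh : D.Aut h) :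
    D.Aut (g * h) := fun y => by
  rw [mul_assoc, hh, ← mul_assoc, hg, mulVec_mulVec, mul_assoc]

theorem der_of_basis {M : Matrix (ι ⊕ Φ) (ι ⊕ Φ) R}
    (h : ∀ b, M * D.ad (e b) = D.ad (e b) * M + D.ad (M *ᵥ e b)) : D.Der M := fun y => by
  rw [pi_eq_sum_univ' y]
  simp only [map_sum, map_smul, Matrix.mul_sum, Matrix.sum_mul, mulVec_sum, mulVec_smul,
    Matrix.mul_smul, Matrix.smul_mul, ← Finset.sum_add_distrib, ← smul_add]
  exact Finset.sum_congr rfl fun b _ => congrArg _ (h b)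

theorem Der.lie {M M' : Matrix (ι ⊕ Φ) (ι ⊕ Φ) R} (h : D.Der M) (h' : D.Der M') :
    D.Der (M * M' - M' * M) := fun y => by
  rw [sub_mulVec, ← mulVec_mulVec, ← mulVec_mulVec, map_sub, sub_mul, mul_assoc, mul_assoc, h, h',
    mul_add, mul_add, ← mul_assoc, ← mul_assoc, h, h', h, h']
  noncomm_ring

omit [DecidableEq ι] [DecidableEq Φ] in
theorem ht_ind {P : Φ → Prop} (h : ∀ u, (∀ s, D.ht s < D.ht u → P s) → P u) (u : Φ) : P u :=
  haveI : IsTrans Φ fun a b => D.ht a < D.ht b := ⟨fun _ _ _ => lt_trans⟩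
  haveI : Std.Irrefl fun a b => D.ht a < D.ht b := ⟨fun _ => lt_irrefl _⟩
  (Finite.wellFounded_of_trans_of_irrefl fun a b => D.ht a < D.ht b).induction u h

namespace Good
variable (G : D.Good)
include G

theorem wt_inj : Function.Injective D.wt := fun _ _ h => G.ht_inj (by rw [ht, h, ht])

theorem neg_neg (r : Φ) : D.neg (D.neg r) = r :=
  G.wt_inj (by rw [G.wt_neg, G.wt_neg, _root_.neg_neg])

theorem neg_comm {r s : Φ} : r = D.neg s ↔ s = D.neg r :=
  ⟨fun h => by rw [h, G.neg_neg], fun h => by rw [h, G.neg_neg]⟩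

theorem ht_neg (r : Φ) : D.ht (D.neg r) = -D.ht r := by rw [ht, G.wt_neg, dotProduct_neg, ht]

theorem wt_ne (r : Φ) : D.wt r ≠ 0 := fun h => by simpa [A, h] using G.A_self r

theorem neg_ne (r : Φ) : D.neg r ≠ r := fun h => G.wt_ne r (by
  have := G.wt_neg r
  rw [h] at this
  ext i
  have := congrFun this i
  simp only [Pi.neg_apply, Pi.zero_apply] at *
  omega)

theorem ht_ne (r : Φ) : D.ht r ≠ 0 := fun h =>
  G.neg_ne r (G.ht_inj (by rw [G.ht_neg, h, neg_zero]))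

theorem e_eq_V {c : ℤ} {v : Φ} {μ : ι → ℤ} (h : c ≠ 0 → D.wt v = μ) :
    (c : R) • e (.inr v) = (c : R) • (D.V μ : ι ⊕ Φ → R) := by
  by_cases hc : c = 0
  · simp [hc]
  · rw [← h hc]
    congr 1
    ext (j | u) <;> simp [V, Pi.single_apply, G.wt_inj.eq_iff]

theorem Ez_ne {r : Φ} {b' b : ι ⊕ Φ} (h : D.Ez r b' b ≠ 0) : D.W b' = D.wt r + D.W b := by
  rcases b' with i | u <;> rcases b with j | s <;> simp only [Ez, ne_eq, ite_eq_right_iff,
    Classical.not_imp, not_true_eq_false] at h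
  · simp [W, h.1, G.wt_neg]
  · simp [W, h.1]
  · simpa [W, h.1] using G.wt_add _ _ h.2

theorem der_inl (r : Φ) (i : ι) : D.E R r * D.ad (e (.inl i)) =
    D.ad (e (.inl i)) * D.E R r + D.ad (D.E R r *ᵥ e (.inl i)) := by
  rw [E_inl, map_smul, ad_inl, ad_inr]
  ext b' b
  by_cases h : D.Ez r b' b = 0
  · simp [E, h]
  · simp [E, G.Ez_ne h]
    ring

theorem der_gen {r : Φ} (hr : r = D.r0 ∨ ∃ i, r = D.p i) : D.Der (D.E R r) := by
  refine der_of_basis ?_
  rintro (i | s)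
  · exact G.der_inl r i
  rw [E_inr, map_add, map_smul, ad_inr, ad_inr]
  refine ext_of_mulVec_single ?_
  rintro (i | u)
  · simp only [add_mulVec, ← mulVec_mulVec, smul_mulVec, E_inl, mulVec_smul, E_inr]
    rw [G.N_anti r s]
    by_cases h : s = D.neg r
    · subst h
      simp [G.N_neg, G.neg_neg, G.co_neg, G.wt_neg, ad_hv, W]
      ext (j | u) <;> simp [hv]
    · simp only [if_neg h, if_neg (mt G.neg_comm.1 h), map_zero, zero_mulVec]
      by_cases h1 : D.N r s = 0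
      · simp [h1]
      · rw [G.wt_add _ _ h1, show D.add s r = D.add r s from G.wt_inj (by
          rw [G.wt_add _ _ h1, G.wt_add _ _ (by rwa [G.N_anti, neg_ne_zero]), add_comm])]
        simp only [Pi.add_apply]
        push_cast
        module
  · have h1 := congrArg (Int.cast : ℤ → R) (G.jac1 r hr s u)
    have h2 := fun i => congrArg (Int.cast : ℤ → R) (G.jac2 r hr s u i)
    set μ := D.wt r + D.wt s + D.wt u
    have e1 : ∀ r s u, (D.N s u : R) • D.E R r *ᵥ e (.inr (D.add s u)) =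
        ((D.N s u * D.N r (D.add s u) : ℤ) : R) • D.V (D.wt r + D.wt s + D.wt u) +
        ((if D.add s u = D.neg r then D.N s u else 0 : ℤ) : R) • hv (D.co r) := fun r s u => by
      rw [E_inr, smul_add, smul_smul, ← Int.cast_mul, G.e_eq_V fun h => by
        rw [G.wt_add _ _ (right_ne_zero_of_mul h), G.wt_add _ _ (left_ne_zero_of_mul h),
          ← add_assoc]]
      split_ifs <;> simp
    have e2 : ∀ r s u, D.E R r *ᵥ (if u = D.neg s then hv (D.co s) else 0) =
        -((if u = D.neg s then D.A s r else 0 : ℤ) : R) • D.V (D.wt r + D.wt s + D.wt u) :=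
      fun r s u => by
      split_ifs with h
      · rw [E_hv, ← Int.cast_neg, G.e_eq_V (μ := D.wt r + D.wt s + D.wt u) fun _ => by
          rw [h, G.wt_neg, add_neg_cancel_right], Int.cast_neg, A]
      · simp
    have e3 : (D.N r s : R) • D.E R (D.add r s) *ᵥ e (.inr u) =
        ((D.N r s * D.N (D.add r s) u : ℤ) : R) • D.V μ +
        ((if u = D.neg (D.add r s) then D.N r s else 0 : ℤ) : R) • hv (D.co (D.add r s)) := by
      rw [E_inr, smul_add, smul_smul, ← Int.cast_mul, G.e_eq_V fun h => by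
        rw [G.wt_add _ _ (right_ne_zero_of_mul h), G.wt_add _ _ (left_ne_zero_of_mul h)]]
      split_ifs <;> simp [μ]
    have e4 : D.ad (if s = D.neg r then hv (D.co r) else 0 : _ → R) *ᵥ e (.inr u) =
        ((if s = D.neg r then D.A r u else 0 : ℤ) : R) • D.V μ := by
      split_ifs with h
      · rw [ad_hv, diagonal_mulVec_single, ← G.e_eq_V (v := u) fun _ => by
          simp [μ, h, G.wt_neg]]
        ext b
        simp [W, A, Pi.single_apply]
      · rw [map_zero, zero_mulVec, Int.cast_zero, zero_smul]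
    simp only [add_mulVec, ← mulVec_mulVec, smul_mulVec, E_inr _ _ u, mulVec_add, mulVec_smul, e1,
      e2, e4]
    rw [← E_inr, e3, add_comm (D.wt s) (D.wt r)]
    ext (j | v)
    · have h3 := h2 j
      simp only [hv, V, Pi.add_apply, Pi.smul_apply, Sum.elim_inl, Pi.zero_apply, smul_eq_mul]
      push_cast at h3 ⊢
      linear_combination h3
    · simp only [hv, Pi.add_apply, Pi.smul_apply, Sum.elim_inr, Pi.zero_apply, smul_eq_mul, μ]
      push_cast at h1 ⊢
      linear_combination h1 * D.V (D.wt r + D.wt s + D.wt u) (Sum.inr v)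

theorem ht_add {r s : Φ} (h : D.N r s ≠ 0) : D.ht (D.add r s) = D.ht r + D.ht s := by
  rw [ht, G.wt_add _ _ h, dotProduct_add, ht, ht]

theorem ne_neg {r s : Φ} (h : D.N r s ≠ 0) : s ≠ D.neg r := fun h1 => h (h1 ▸ G.N_neg r)

theorem E_E_inr (r s : Φ) : D.E R r *ᵥ (D.E R r *ᵥ e (.inr s)) =
    ((D.N r s * D.N r (D.add r s) : ℤ) : R) • e (.inr (D.add r (D.add r s))) +
      if s = D.neg r then (-2 : R) • e (.inr r) else 0 := by
  rw [E_inr, mulVec_add, mulVec_smul, E_inr, smul_add, smul_smul, Int.cast_mul]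
  have h : (D.N r s : R) • (if D.add r s = D.neg r then hv (D.co r) else 0 : ι ⊕ Φ → R) = 0 := by
    split_ifs with h
    · rw [not_not.1 (mt (G.add_ne r s) (not_not.2 h)), Int.cast_zero, zero_smul]
    · rw [smul_zero]
  rw [h, add_zero]
  split_ifs
  · rw [E_hv, ← A, G.A_self, Int.cast_ofNat]
  · rw [mulVec_zero]

theorem E_self (r : Φ) : D.E R r *ᵥ e (.inr r) = 0 := by
  rw [E_inr, G.N_self, if_neg (G.neg_ne r).symm, Int.cast_zero, zero_smul, add_zero]

theorem E_mul_E (r : Φ) : D.E R r * D.E R r = (2 : R) • D.M2 R r := by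
  refine ext_of_mulVec_single ?_
  rintro (i | s)
  · rw [← mulVec_mulVec, E_inl, mulVec_smul, G.E_self]
    ext (j | u) <;> simp [M2, M2z]
  · rw [← mulVec_mulVec, G.E_E_inr, ← Int.mul_ediv_cancel' (G.dvd2 r s)]
    ext (j | u) <;> simp [M2, M2z, Pi.single_apply, apply_ite (Int.cast : ℤ → R), mul_add,
      ite_apply, add_comm, apply_ite (Neg.neg : R → R)]

theorem E_E_E_inr (r s : Φ) : D.E R r *ᵥ (D.E R r *ᵥ (D.E R r *ᵥ e (.inr s))) =
    ((D.N r s * D.N r (D.add r s) * D.N r (D.add r (D.add r s)) : ℤ) : R) •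
      e (.inr (D.add r (D.add r (D.add r s)))) := by
  rw [E_inr, mulVec_add, mulVec_add, mulVec_smul, mulVec_smul, G.E_E_inr, smul_add, smul_smul]
  by_cases h : D.N r s = 0
  · split_ifs <;> simp [h, E_hv, mulVec_smul, mulVec_neg, G.E_self]
  · rw [if_neg (G.add_ne r s h), if_neg (G.ne_neg h)]
    simp [mul_assoc]

theorem E_pow_three (r : Φ) : D.E R r * D.E R r * D.E R r = (6 : R) • D.M3 R r := by
  refine ext_of_mulVec_single ?_
  rintro (i | s)
  · rw [← mulVec_mulVec, ← mulVec_mulVec, E_inl, mulVec_smul, G.E_self]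
    ext (j | u) <;> simp [M3, M3z]
  · rw [← mulVec_mulVec, ← mulVec_mulVec, G.E_E_E_inr, ← Int.mul_ediv_cancel' (G.dvd6 r s)]
    ext (j | u) <;> simp [M3, M3z, Pi.single_apply, apply_ite (Int.cast : ℤ → R)]

theorem E_pow_four (r : Φ) : D.E R r * D.E R r * D.E R r * D.E R r = 0 := by
  refine ext_of_mulVec_single ?_
  rintro (i | s)
  · simp only [← mulVec_mulVec, E_inl, mulVec_smul, G.E_self, smul_zero, mulVec_zero, zero_mulVec]
  · simp only [← mulVec_mulVec, zero_mulVec]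
    by_cases h : D.N r s = 0
    · rw [G.E_E_E_inr]
      simp [h]
    · rw [E_inr _ r s, if_neg (G.ne_neg h), add_zero, mulVec_smul, mulVec_smul,
        mulVec_smul, G.E_E_E_inr, smul_smul, ← Int.cast_mul, ← mul_assoc, ← mul_assoc, G.nil]
      simp

theorem six_X (r : Φ) (t : R) : (6 : R) • D.X r t = (6 : R) • 1 + (6 * t) • D.E R r +
    (3 * t ^ 2) • (D.E R r * D.E R r) + t ^ 3 • (D.E R r * D.E R r * D.E R r) := by
  rw [G.E_pow_three, G.E_mul_E, X]
  module

section dom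
variable [IsDomain R] [CharZero R]

theorem der_E (u : Φ) : D.Der (D.E R u) := by
  induction u using ht_ind (D := D) with | _ u ih
  rcases G.gen u with h | h | ⟨i, s, h, rfl⟩
  · exact G.der_gen (.inl h)
  · exact G.der_gen (.inr h)
  have h1 := G.der_gen (R := R) (.inr ⟨i, rfl⟩)
  have h2 := h1 (e (.inr s))
  rw [E_inr, if_neg (G.ne_neg h), add_zero, map_smul, ad_inr, ad_inr] at h2
  intro y
  have h3 := h1.lie (ih s (by rw [G.ht_add h]; linarith [G.ht_p i])) y
  rw [h2, add_sub_cancel_left, smul_mul_assoc, mul_smul_comm, smul_mulVec, map_smul,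
    ← smul_add] at h3
  exact smul_right_injective _ (Int.cast_ne_zero.2 h) h3

theorem aut_X (r : Φ) (t : R) : D.Aut (D.X r t) := fun y => by
  refine smul_right_injective _ (show (720 : R) ≠ 0 by norm_num) ?_
  have h := G.six_X r t
  have h4 := G.E_pow_four (R := R) r
  have hd := G.der_E (R := R) r
  generalize D.E R r = E at *
  generalize D.X r t = X at *
  have h0 := hd y
  have h1 := hd (E *ᵥ y)
  have h2 := hd (E *ᵥ E *ᵥ y)
  have h3 := hd (E *ᵥ E *ᵥ E *ᵥ y)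
  have h5 : E *ᵥ E *ᵥ E *ᵥ E *ᵥ y = 0 := by
    simp only [mulVec_mulVec, ← mul_assoc, h4, zero_mulVec]
  have h6 := congrArg (fun M => D.ad (M *ᵥ y)) h
  simp only [add_mulVec, smul_mulVec, map_add, map_smul, one_mulVec, ← mulVec_mulVec] at h6
  rw [h5, map_zero, add_zero] at h3
  generalize D.ad (E *ᵥ E *ᵥ E *ᵥ y) = Y3 at *
  generalize D.ad (E *ᵥ E *ᵥ y) = Y2 at *
  generalize D.ad (E *ᵥ y) = Y1 at *
  generalize D.ad (X *ᵥ y) = Z at *
  generalize D.ad y = Y0 at *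
  have k2 : E * E * Y0 = Y0 * (E * E) + 2 • (Y1 * E) + Y2 := by
    rw [mul_assoc, h0, mul_add, ← mul_assoc, h0, h1]; noncomm_ring
  have k3 : E * E * E * Y0 = Y0 * (E * E * E) + 3 • (Y1 * (E * E)) + 3 • (Y2 * E) + Y3 := by
    rw [mul_assoc E E E, mul_assoc E, k2]
    simp only [mul_add, mul_smul_comm, ← mul_assoc, h0, h1, h2]; noncomm_ring
  have h7 : ∀ Y, Y * E * E * E * E = 0 := fun Y => by
    rw [← mul_zero Y, ← h4]; simp only [mul_assoc]
  have k4 : 4 • (Y1 * (E * E * E)) + 6 • (Y2 * (E * E)) + 4 • (Y3 * E) = 0 := by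
    have := congrArg (E * ·) k3
    simp only [mul_add, mul_smul_comm, ← mul_assoc, h0, h1, h2, h3, h4, zero_mul, add_mul] at this
    rw [h7] at this
    rw [this]; noncomm_ring
  have k5 : 10 • (Y2 * (E * E * E)) + 10 • (Y3 * (E * E)) = 0 := by
    have := congrArg (E * ·) k4
    simp only [mul_add, mul_smul_comm, ← mul_assoc, h1, h2, h3, mul_zero, add_mul] at this
    rw [h7] at this
    rw [← this]; noncomm_ring
  have k6 : 20 • (Y3 * (E * E * E)) = 0 := by
    have := congrArg (E * ·) k5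
    simp only [mul_add, mul_smul_comm, ← mul_assoc, h2, h3, mul_zero, add_mul] at this
    rw [h7] at this
    rw [← this]; noncomm_ring
  have a1 : (6 : R) • (X * Y0) = ((6 : R) • X) * Y0 := (smul_mul_assoc _ _ _).symm
  have a2 : (36 : R) • (Z * X) = ((6 : R) • Z) * ((6 : R) • X) := by
    rw [smul_mul_smul_comm]; norm_num
  rw [h6, h] at a2
  rw [h] at a1
  simp only [add_mul, mul_add, smul_mul_assoc, mul_smul_comm, one_mul, mul_one, h0, k2, k3] at a1 a2
  linear_combination (norm := module) (120 : R) • a1 - (20 : R) • a2 - (30 * t ^ 4) • k4 -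
    (6 * t ^ 5) • k5 - t ^ 6 • k6

end dom

end Good
end RD
end CfsgLib.Chev
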