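import Cfsg.Agent.Lib.Chev.Lie

/-! Root elements: additivity, supports, and factorization of unipotent automorphisms. -/

set_option autoImplicit false

namespace CfsgLib.Chev
open Matrix

namespace RD
variable {ι Φ : Type} [Fintype ι] [DecidableEq ι] [Fintype Φ] [DecidableEq Φ] {D : RD ι Φ}
  {R : Type*} [CommRing R]

variable (D) in
/-- All nonzero entries raise weights by elements of `Γ`. -/
def Sup (Γ : Set (ι → ℤ)) (M : Matrix (ι ⊕ Φ) (ι ⊕ Φ) R) : Prop :=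
  ∀ b' b, M b' b ≠ 0 → D.W b' - D.W b ∈ Γ

section
omit [DecidableEq ι] [DecidableEq Φ]

theorem Sup.mul {Γ₁ Γ₂ Γ : Set (ι → ℤ)} {M M' : Matrix (ι ⊕ Φ) (ι ⊕ Φ) R} (h : D.Sup Γ₁ M)
    (h' : D.Sup Γ₂ M') (hΓ : ∀ μ ∈ Γ₁, ∀ ν ∈ Γ₂, μ + ν ∈ Γ) : D.Sup Γ (M * M') := fun b' b h1 => by
  obtain ⟨c, -, hc⟩ := Finset.exists_ne_zero_of_sum_ne_zero h1
  simpa using hΓ _ (h _ _ (left_ne_zero_of_mul hc)) _ (h' _ _ (right_ne_zero_of_mul hc))

omit [Fintype ι] [Fintype Φ]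

theorem Sup.add {Γ : Set (ι → ℤ)} {M M' : Matrix (ι ⊕ Φ) (ι ⊕ Φ) R} (h : D.Sup Γ M)
    (h' : D.Sup Γ M') : D.Sup Γ (M + M') := fun b' b h1 => by
  by_cases h2 : M b' b = 0
  · exact h' _ _ (by simpa [h2] using h1)
  · exact h _ _ h2

theorem Sup.smul {Γ : Set (ι → ℤ)} {M : Matrix (ι ⊕ Φ) (ι ⊕ Φ) R} (h : D.Sup Γ M) (c : R) :
    D.Sup Γ (c • M) := fun _ _ h1 => h _ _ (right_ne_zero_of_mul h1)

theorem Sup.mono {Γ Γ' : Set (ι → ℤ)} {M : Matrix (ι ⊕ Φ) (ι ⊕ Φ) R} (h : D.Sup Γ M)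
    (hΓ : Γ ⊆ Γ') : D.Sup Γ' M := fun _ _ h1 => hΓ (h _ _ h1)

end

theorem Sup.mul_sub_one {Γ : AddSubsemigroup (ι → ℤ)} {M M' : Matrix (ι ⊕ Φ) (ι ⊕ Φ) R}
    (h : D.Sup Γ (M - 1)) (h' : D.Sup Γ (M' - 1)) : D.Sup Γ (M * M' - 1) := by
  rw [show M * M' - 1 = (M - 1) * (M' - 1) + (M - 1) + (M' - 1) by noncomm_ring]
  exact ((h.mul h' fun _ h1 _ h2 => Γ.add_mem h1 h2).add h).add h'

theorem X_zero (r : Φ) : D.X r (0 : R) = 1 := by simp [X]

/-- Transfer of two-parameter statements from characteristic zero. -/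
theorem exists_lift (a b : R) : ∃ (φ : MvPolynomial (Fin 2) ℤ →+* R) (a' b' : MvPolynomial (Fin 2) ℤ),
    φ a' = a ∧ φ b' = b :=
  ⟨MvPolynomial.eval₂Hom (Int.castRingHom R) ![a, b], .X 0, .X 1, by simp, by simp⟩

namespace Good
variable (G : D.Good)
include G

theorem sup_E (r : Φ) : D.Sup {D.wt r} (D.E R r) := fun b' b h => by
  rw [G.Ez_ne (r := r) (b := b) fun h1 => h (by simp [E, h1]), add_sub_cancel_right]; rfl

theorem sup_M2 (r : Φ) : D.Sup {D.wt r + D.wt r} (D.M2 R r) := fun b' b h => by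
  refine ((G.sup_E (R := ℤ) r).mul (G.sup_E r) ?_) b' b fun h1 => h ?_
  · rintro _ rfl _ rfl; rfl
  · rw [G.E_mul_E] at h1
    simp only [M2, Matrix.smul_apply, of_apply, Int.cast_id, smul_eq_mul, mul_eq_zero] at h1
    simp [M2, h1.resolve_left (by norm_num)]

theorem sup_M3 (r : Φ) : D.Sup {D.wt r + D.wt r + D.wt r} (D.M3 R r) := fun b' b h => by
  refine (((G.sup_E (R := ℤ) r).mul (Γ := {D.wt r + D.wt r}) (G.sup_E r) ?_).mul (G.sup_E r) ?_)
    b' b fun h1 => h ?_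
  · rintro _ rfl _ rfl; rfl
  · rintro _ rfl _ rfl; rfl
  · rw [G.E_pow_three] at h1
    simp only [M3, Matrix.smul_apply, of_apply, Int.cast_id, smul_eq_mul, mul_eq_zero] at h1
    simp [M3, h1.resolve_left (by norm_num)]

theorem sup_X' {Γ : Set (ι → ℤ)} {r : Φ} (h2 : D.wt r + D.wt r ∈ Γ)
    (h3 : D.wt r + D.wt r + D.wt r ∈ Γ) (t : R) : D.Sup Γ (D.X r t - 1 - t • D.E R r) := by
  rw [show D.X r t - 1 - t • D.E R r = t ^ 2 • D.M2 R r + t ^ 3 • D.M3 R r by rw [X]; abel]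
  exact (((G.sup_M2 r).mono (Set.singleton_subset_iff.2 h2)).smul _).add
    (((G.sup_M3 r).mono (Set.singleton_subset_iff.2 h3)).smul _)

theorem sup_X {Γ : AddSubsemigroup (ι → ℤ)} {r : Φ} (h : D.wt r ∈ Γ) (t : R) :
    D.Sup Γ (D.X r t - 1) := by
  rw [← sub_add_cancel (D.X r t - 1) (t • D.E R r)]
  exact (G.sup_X' (Γ.add_mem h h) (Γ.add_mem (Γ.add_mem h h) h) t).add
    (((G.sup_E r).mono (Set.singleton_subset_iff.2 h)).smul _)

theorem X_add' [IsDomain R] [CharZero R] (r : Φ) (a b : R) :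
    D.X r a * D.X r b = D.X r (a + b) := by
  refine smul_right_injective _ (show (36 : R) ≠ 0 by norm_num) ?_
  have h4 := G.E_pow_four (R := R) r
  have h1 : (36 : R) • (D.X r a * D.X r b) = ((6 : R) • D.X r a) * ((6 : R) • D.X r b) := by
    rw [smul_mul_smul_comm]; norm_num
  have h2 := G.six_X r (a + b)
  rw [G.six_X, G.six_X] at h1
  simp only [add_mul, mul_add, smul_mul_assoc, mul_smul_comm, one_mul, mul_one, ← mul_assoc, h4,
    zero_mul] at h1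
  linear_combination (norm := module) h1 - (6 : R) • h2

theorem X_add (r : Φ) (a b : R) : D.X r a * D.X r b = D.X r (a + b) := by
  obtain ⟨φ, a, b, rfl, rfl⟩ := exists_lift a b
  rw [← map_X, ← map_X, ← map_mul, G.X_add', map_X, map_add]

theorem X_comm' [IsDomain R] [CharZero R] {r s : Φ} (h : D.N r s = 0) (hs : s ≠ D.neg r)
    (a b : R) : D.X r a * D.X s b = D.X s b * D.X r a := by
  have h1 := G.der_E (R := R) r (e (.inr s))
  rw [E_inr, h, if_neg hs, ad_inr, Int.cast_zero, zero_smul, add_zero, map_zero, add_zero] at h1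
  have h2 : Commute ((6 : R) • D.X r a) ((6 : R) • D.X s b) := by
    have h1 : Commute (D.E R r) (D.E R s) := h1
    have h2 : Commute ((6 : R) • D.X r a) (D.E R s) := by
      rw [G.six_X]
      exact ((((Commute.one_left _).smul_left _).add_left (h1.smul_left _)).add_left
        ((h1.mul_left h1).smul_left _)).add_left (((h1.mul_left h1).mul_left h1).smul_left _)
    rw [G.six_X s]
    exact ((((Commute.one_right _).smul_right _).add_right (h2.smul_right _)).add_right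
      ((h2.mul_right h2).smul_right _)).add_right (((h2.mul_right h2).mul_right h2).smul_right _)
  refine smul_right_injective _ (show (6 * 6 : R) ≠ 0 by norm_num) ?_
  simpa only [smul_mul_smul_comm] using h2.eq

theorem X_comm {r s : Φ} (h : D.N r s = 0) (hs : s ≠ D.neg r) (a b : R) :
    D.X r a * D.X s b = D.X s b * D.X r a := by
  obtain ⟨φ, a, b, rfl, rfl⟩ := exists_lift a b
  rw [← map_X, ← map_X, ← map_mul, G.X_comm' h hs, map_mul]

section dom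
variable [IsDomain R] [CharZero R]

omit [IsDomain R] [CharZero R] in
theorem deg_step {T : Matrix (ι ⊕ Φ) (ι ⊕ Φ) R} (ha : D.Aut (1 + T)) {m : ℤ} (hm : 0 < m)
    (hT : D.Sup {μ | m ≤ D.fv ⬝ᵥ μ} T) (i : ι) {b' b : ι ⊕ Φ} (hb : D.fv ⬝ᵥ (D.W b' - D.W b) = m) :
    T b' b * ((D.W b i - D.W b' i : ℤ) : R) = ∑ v, T (.inr v) (.inl i) * D.Ez v b' b := by
  have h1 : T *ᵥ e (.inl i) = ∑ v, T (.inr v) (.inl i) • e (.inr v) := by
    ext (j | u)
    · simpa [Finset.sum_apply] using not_not.1 (mt (hT (.inl j) (.inl i)) (by simpa [W]))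
    · simp [Finset.sum_apply, Pi.single_apply]
  have h2 := ha (e (.inl i))
  rw [add_mulVec, one_mulVec, h1, map_add, map_sum] at h2
  simp only [map_smul, ad_inr, ad_inl] at h2
  have h3 : D.Sup {μ | m ≤ D.fv ⬝ᵥ μ} (∑ v, T (.inr v) (.inl i) • D.E R v) := fun c' c h => by
    rw [Matrix.sum_apply] at h
    obtain ⟨v, -, hv⟩ := Finset.exists_ne_zero_of_sum_ne_zero h
    rw [G.sup_E v _ _ (right_ne_zero_of_mul hv)]
    simpa [W] using hT _ _ (left_ne_zero_of_mul hv)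
  have h4 := not_not.1 (mt ((h3.mul hT (Γ := {μ | m < D.fv ⬝ᵥ μ}) fun μ h ν h' => by
    simp only [Set.mem_setOf_eq, dotProduct_add] at *; omega) b' b) (by simp [hb]))
  rw [add_mul, add_mul, mul_add, mul_add, one_mul, mul_one, mul_one, add_assoc,
    add_left_cancel_iff] at h2
  have h5 := congrFun (congrFun h2 b') b
  rw [Matrix.add_apply, Matrix.add_apply, h4, mul_diagonal, diagonal_mul, Matrix.sum_apply] at h5
  simp only [Matrix.smul_apply, E, of_apply, smul_eq_mul] at h5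
  push_cast
  linear_combination h5

theorem deg_step2 {T : Matrix (ι ⊕ Φ) (ι ⊕ Φ) R} (ha : D.Aut (1 + T)) {m : ℤ} (hm : 0 < m)
    (hT : D.Sup {μ | m ≤ D.fv ⬝ᵥ μ} T) {c' c : ι ⊕ Φ} (hc : D.fv ⬝ᵥ (D.W c' - D.W c) = m)
    (h0 : T c' c ≠ 0) : ∃ u i, T (.inr u) (.inl i) ≠ 0 ∧ D.ht u = m ∧ ∃ t : R,
      ∀ b' b, D.fv ⬝ᵥ (D.W b' - D.W b) = m → T b' b = t * D.Ez u b' b := by
  have h1 : ∀ {b' b}, D.fv ⬝ᵥ (D.W b' - D.W b) = m → ∃ i, ((D.W b i - D.W b' i : ℤ) : R) ≠ 0 :=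
    fun {b' b} h => by
    by_contra! h2
    rw [show D.W b' - D.W b = 0 from funext fun i => by
      have := Int.cast_eq_zero.1 (h2 i); simp only [Pi.sub_apply, Pi.zero_apply]; omega] at h
    simp [← h] at hm
  have h2 : ∀ {v b' b}, D.fv ⬝ᵥ (D.W b' - D.W b) = m → D.Ez v b' b ≠ 0 → D.ht v = m :=
    fun h h' => by rwa [G.Ez_ne h', add_sub_cancel_right] at h
  obtain ⟨i, hi⟩ := h1 hc
  obtain ⟨u, -, hu⟩ := Finset.exists_ne_zero_of_sum_ne_zero
    ((G.deg_step ha hm hT i hc).symm.trans_ne (mul_ne_zero h0 hi))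
  have hum := h2 hc (Int.cast_ne_zero.1 (right_ne_zero_of_mul hu))
  have h3 : ∀ i {b' b}, D.fv ⬝ᵥ (D.W b' - D.W b) = m →
      T b' b * ((D.W b i - D.W b' i : ℤ) : R) = T (.inr u) (.inl i) * D.Ez u b' b := fun i _ _ h => by
    rw [G.deg_step ha hm hT i h, Finset.sum_eq_single u _ (by simp)]
    exact fun v _ hv => by rw [not_not.1 (mt (h2 h) fun h4 => hv (G.ht_inj (h4.trans hum.symm))),
      Int.cast_zero, mul_zero]
  obtain ⟨s, hs⟩ := G.prim u
  have h4 : ∀ j, T (.inr u) (.inl j) = (∑ i, T (.inr u) (.inl i) * D.co s i) * D.wt u j := fun j => by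
    rw [Finset.sum_mul, ← mul_one (T _ (.inl j)), ← Int.cast_one, ← hs, A, dotProduct, Int.cast_sum,
      Finset.mul_sum]
    refine Finset.sum_congr rfl fun i _ => ?_
    have := h3 i (b' := .inr u) (b := .inl j) (by simpa [W, ht] using hum)
    simp only [W, Sum.elim_inl, Sum.elim_inr, Pi.zero_apply, Ez, if_true] at this
    push_cast at this ⊢
    linear_combination -(D.co s i : R) * this
  refine ⟨u, i, left_ne_zero_of_mul hu, hum, -∑ i, T (.inr u) (.inl i) * D.co s i, fun b' b h => ?_⟩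
  obtain ⟨j, hj⟩ := h1 h
  refine mul_right_cancel₀ hj ?_
  rw [h3 j h, h4 j]
  by_cases h5 : D.Ez u b' b = 0
  · simp [h5]
  · rw [G.Ez_ne h5]
    simp only [Pi.add_apply]
    push_cast
    ring

theorem factor (Γ : AddSubsemigroup (ι → ℤ)) (hΓ : ∀ μ ∈ Γ, 0 < D.fv ⬝ᵥ μ)
    {g : Matrix (ι ⊕ Φ) (ι ⊕ Φ) R} (ha : D.Aut g) (hs : D.Sup Γ (g - 1)) :
    ∃ l : List (Φ × R), (∀ x ∈ l, D.wt x.1 ∈ Γ) ∧ g = (l.map fun x => D.X x.1 x.2).prod := by
  obtain ⟨M, hM⟩ := Finite.bddAbove_range fun x : (ι ⊕ Φ) × (ι ⊕ Φ) => D.fv ⬝ᵥ (D.W x.1 - D.W x.2)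
  suffices h : ∀ (k : ℕ) (g : Matrix (ι ⊕ Φ) (ι ⊕ Φ) R), D.Aut g → D.Sup Γ (g - 1) →
      D.Sup {μ | M - k < D.fv ⬝ᵥ μ} (g - 1) →
      ∃ l : List (Φ × R), (∀ x ∈ l, D.wt x.1 ∈ Γ) ∧ g = (l.map fun x => D.X x.1 x.2).prod from
    h M.toNat g ha hs (hs.mono fun μ h => by have := hΓ μ h; simp only [Set.mem_setOf_eq]; omega)
  intro k
  induction k with
  | zero =>
    refine fun g _ _ h => ⟨[], by simp, sub_eq_zero.1 (Matrix.ext fun b' b => ?_)⟩
    exact not_not.1 (mt (h b' b) (by simpa using hM ⟨(b', b), rfl⟩))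
  | succ k ih =>
    intro g ha hs h
    have h1 : D.Sup {μ | M - k ≤ D.fv ⬝ᵥ μ} (g - 1) := h.mono fun μ h => by
      simp only [Set.mem_setOf_eq] at *; omega
    by_cases h2 : D.Sup {μ | M - k < D.fv ⬝ᵥ μ} (g - 1)
    · exact ih g ha hs h2
    simp only [Sup, not_forall, Set.mem_setOf_eq, not_lt] at h2
    obtain ⟨c', c, h0, hc⟩ := h2
    replace hc := le_antisymm hc (h1 _ _ h0)
    have hm := hc ▸ hΓ _ (hs _ _ h0)
    obtain ⟨u, i, hu, hum, t, ht⟩ := G.deg_step2 (by simpa using ha) hm h1 hc h0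
    have huΓ : D.wt u ∈ Γ := by simpa [W] using hs _ _ hu
    obtain ⟨l, hl, h3⟩ := ih (D.X u (-t) * g) ((G.aut_X u _).mul ha) ((G.sup_X huΓ _).mul_sub_one hs)
      (by
        rw [show D.X u (-t) * g - 1 = (D.X u (-t) - 1) * (g - 1) +
          (D.X u (-t) - 1 - (-t) • D.E R u) + (g - 1 - t • D.E R u) by
            rw [neg_smul]; noncomm_ring]
        rw [RD.ht] at hum
        refine (Sup.add ((G.sup_X huΓ _).mul h1 fun μ h ν h' => ?_) (G.sup_X' ?_ ?_ _)).add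
          fun b' b h4 => ?_
        · have := hΓ μ h
          simp only [Set.mem_setOf_eq, dotProduct_add] at *; omega
        · simp only [Set.mem_setOf_eq, dotProduct_add]; omega
        · simp only [Set.mem_setOf_eq, dotProduct_add]; omega
        · refine lt_of_le_of_ne (α := ℤ) ?_ fun h5 => h4 ?_
          · exact (h1.add (((G.sup_E u).mono (Set.singleton_subset_iff.2 hum.ge)).smul (-t))) _ _
              (by rwa [neg_smul, ← sub_eq_add_neg])
          · rw [Matrix.sub_apply, ht b' b h5.symm]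
            simp [E])
    refine ⟨(u, t) :: l, by simpa [huΓ] using hl, ?_⟩
    rw [List.map_cons, List.prod_cons, ← h3, ← mul_assoc, G.X_add, add_neg_cancel, X_zero, one_mul]

end dom

theorem conj_factor (Γ : AddSubsemigroup (ι → ℤ)) (hΓ : ∀ μ ∈ Γ, 0 < D.fv ⬝ᵥ μ) {r s : Φ}
    (hr : ∀ μ ∈ Γ, μ + D.wt r ∈ Γ) (hs : D.wt s ∈ Γ) (a b : R) :
    ∃ l : List (Φ × R), (∀ x ∈ l, D.wt x.1 ∈ Γ) ∧
      D.X r a * D.X s b * D.X r (-a) = (l.map fun x => D.X x.1 x.2).prod := by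
  obtain ⟨φ, a, b, rfl, rfl⟩ := exists_lift a b
  let Γ' : AddSubmonoid (ι → ℤ) :=
    { carrier := {ν | ∀ μ ∈ Γ, μ + ν ∈ Γ}
      add_mem' := fun h h' μ hμ => add_assoc μ _ _ ▸ h' _ (h _ hμ)
      zero_mem' := fun μ h => by simpa }
  have h1 : ∀ t : MvPolynomial (Fin 2) ℤ, D.Sup Γ' (D.X r t) := fun t => by
    rw [← sub_add_cancel (D.X r t) 1]
    refine (G.sup_X (Γ := Γ'.toAddSubsemigroup) hr t).add fun b' b h => ?_
    rw [not_not.1 (mt one_apply_ne h), sub_self]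
    exact Γ'.zero_mem
  obtain ⟨l, hl, h⟩ := G.factor Γ hΓ (((G.aut_X r a).mul (G.aut_X s b)).mul (G.aut_X r (-a))) (by
    rw [show D.X r a * D.X s b * D.X r (-a) - 1 = D.X r a * (D.X s b - 1) * D.X r (-a) by
      rw [mul_sub, sub_mul, mul_one, G.X_add, add_neg_cancel, X_zero]]
    exact ((h1 a).mul (G.sup_X hs b) fun μ h ν h' => add_comm ν μ ▸ h _ h').mul (h1 _)
      fun μ h ν h' => h' _ h)
  refine ⟨l.map fun x => (x.1, φ x.2), List.forall_mem_map.2 hl, ?_⟩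
  rw [← map_neg, ← map_X, ← map_X, ← map_X, ← map_mul, ← map_mul, h, map_list_prod, List.map_map,
    List.map_map]
  simp only [Function.comp_def, map_X]

end Good
end RD
end CfsgLib.Chev
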