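import Cfsg.Agent.Lib.Chev.Lie2

/-! Reflections and the elements `n_r`. -/

set_option autoImplicit false

namespace CfsgLib.Chev
open Matrix

namespace RD
variable {ι Φ : Type} [Fintype ι] [DecidableEq ι] [Fintype Φ] [DecidableEq Φ] {D : RD ι Φ}
  {R : Type*} [CommRing R]

variable (D R) in
/-- The matrix of `n_r`. -/
def nM (r : Φ) : Matrix (ι ⊕ Φ) (ι ⊕ Φ) R := D.X r 1 * D.X (D.neg r) (-1) * D.X r 1

variable (D) in
open Classical in
/-- The reflection in `r`. -/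
noncomputable def σ (r s : Φ) : Φ :=
  if h : ∃ u, D.wt u = D.wt s - D.A r s • D.wt r then h.choose else s

theorem map_nM {S : Type*} [CommRing S] (φ : R →+* S) (r : Φ) :
    φ.mapMatrix (D.nM R r) = D.nM S r := by
  simp only [nM, map_mul, map_X, map_one, map_neg]

theorem nM_cast {r s u : Φ} {η : ℤ} (h : D.nM ℤ r *ᵥ e (.inr s) = η • e (.inr u)) :
    D.nM R r *ᵥ e (.inr s) = (η : R) • e (.inr u) := by
  ext b
  have := congrArg (Int.cast : ℤ → R) (congrFun h b)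
  rw [← map_nM (Int.castRingHom R)]
  simpa [Pi.single_apply, apply_ite (Int.cast : ℤ → R)] using this

omit [Fintype ι] [Fintype Φ] in
theorem e_inl (i : ι) : (e (.inl i) : ι ⊕ Φ → R) = hv (Pi.single i 1) := by
  ext (j | u) <;> simp [hv, Pi.single_apply]

theorem X_hv (r : Φ) (t : R) (c : ι → ℤ) :
    D.X r t *ᵥ hv c = hv c - (t * (c ⬝ᵥ D.wt r : ℤ)) • e (.inr r) := by
  have h2 : D.M2 R r *ᵥ hv c = 0 := by
    ext (j | u) <;> simp [M2, M2z, mulVec, dotProduct, hv]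
  have h3 : D.M3 R r *ᵥ hv c = 0 := by
    ext (j | u) <;> simp [M3, M3z, mulVec, dotProduct, hv]
  simp only [X, add_mulVec, smul_mulVec, one_mulVec, E_hv, h2, h3]
  module

theorem X_fix {r s : Φ} (h : D.N r s = 0) (hs : s ≠ D.neg r) (t : R) :
    D.X r t *ᵥ e (.inr s) = e (.inr s) := by
  ext (j | u) <;> simp [X, E, M2, M3, Ez, M2z, M3z, h, hs, one_apply, Pi.single_apply]

namespace Good
variable (G : D.Good)
include G

theorem X_self (r : Φ) (t : R) : D.X r t *ᵥ e (.inr r) = e (.inr r) :=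
  X_fix (G.N_self r) (G.neg_ne r).symm t

theorem X_neg (r : Φ) (t : R) : D.X r t *ᵥ e (.inr (D.neg r)) =
    e (.inr (D.neg r)) + t • hv (D.co r) - t ^ 2 • e (.inr r) := by
  ext (j | u) <;> simp [X, E, M2, M3, Ez, M2z, M3z, G.N_neg, one_apply, Pi.single_apply, hv,
    apply_ite (Int.cast : ℤ → R), sub_eq_add_neg, apply_ite (Neg.neg : R → R)]

theorem X_neg' (r : Φ) (t : R) : D.X (D.neg r) t *ᵥ e (.inr r) =
    e (.inr r) - t • hv (D.co r) - t ^ 2 • e (.inr (D.neg r)) := by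
  have h := G.X_neg (D.neg r) t
  rw [G.neg_neg, G.co_neg] at h
  rw [h]
  ext (j | u) <;> simp [hv]

theorem nM_hv (r : Φ) (c : ι → ℤ) :
    D.nM R r *ᵥ hv c = hv (c - (c ⬝ᵥ D.wt r) • D.co r) := by
  have h : (hv (c - (c ⬝ᵥ D.wt r) • D.co r) : ι ⊕ Φ → R) =
      hv c - ((c ⬝ᵥ D.wt r : ℤ) : R) • hv (D.co r) := by
    ext (j | u) <;> simp [hv]
  simp only [nM, ← mulVec_mulVec, X_hv, mulVec_sub, mulVec_smul, G.X_neg', G.X_self, G.X_neg,
    G.wt_neg, dotProduct_neg, h, show D.co r ⬝ᵥ D.wt r = 2 from G.A_self r]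
  push_cast
  module

theorem nM_self (r : Φ) : D.nM R r *ᵥ e (.inr r) = (-1 : R) • e (.inr (D.neg r)) := by
  simp only [nM, ← mulVec_mulVec, X_hv, mulVec_sub, mulVec_smul, G.X_neg', G.X_self, G.X_neg,
    show D.co r ⬝ᵥ D.wt r = 2 from G.A_self r]
  push_cast
  module

theorem exists_col (r s : Φ) : ∃ u, D.wt u = D.wt s - D.A r s • D.wt r ∧ ∃ η : ℤ, IsUnit η ∧
    D.nM ℤ r *ᵥ e (.inr s) = η • e (.inr u) := by
  have ha : D.Aut (D.nM ℤ r) := ((G.aut_X _ _).mul (G.aut_X _ _)).mul (G.aut_X _ _)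
  have h1 : (D.X r (-1) * D.X (D.neg r) 1 * D.X r (-1)) *ᵥ (D.nM ℤ r *ᵥ e (.inr s)) =
      e (.inr s) := by
    rw [mulVec_mulVec, nM, mul_assoc, ← mul_assoc (D.X r _), ← mul_assoc (D.X r _), G.X_add,
      neg_add_cancel, X_zero, one_mul, mul_assoc, ← mul_assoc (D.X (D.neg r) _), G.X_add,
      add_neg_cancel, X_zero, one_mul, G.X_add, neg_add_cancel, X_zero, one_mulVec]
  have h2 : ∀ b, (D.nM ℤ r *ᵥ e (.inr s)) b ≠ 0 → D.W b = D.wt s - D.A r s • D.wt r := fun b hb => by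
    have h3 : ∀ c, c ⬝ᵥ D.wt s = c ⬝ᵥ D.W b - (c ⬝ᵥ D.wt r) * (D.co r ⬝ᵥ D.W b) := fun c => by
      have := congrFun (congrArg (· *ᵥ e (.inr s)) (ha (hv c))) b
      simp only [← mulVec_mulVec, G.nM_hv, ad_hv, diagonal_mulVec_single, mulVec_diagonal] at this
      rw [← smul_eq_mul, ← smul_eq_mul, Pi.single_smul', mulVec_smul] at this
      simpa [W, smul_dotProduct, -zsmul_eq_mul] using mul_right_cancel₀ hb this
    have h4 := h3 (D.co r)
    rw [← A, ← A, G.A_self] at h4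
    ext i
    have := h3 (Pi.single i 1)
    simp only [single_dotProduct, one_mul, Pi.sub_apply, Pi.smul_apply, smul_eq_mul] at this ⊢
    rw [this, h4]
    ring
  generalize D.nM ℤ r *ᵥ e (.inr s) = v at *
  obtain ⟨b, hb⟩ : ∃ b, v b ≠ 0 := by
    by_contra! h
    simpa [show v = 0 from funext h] using congrFun h1 (.inr s)
  have h5 : ∀ j, v (.inl j) = 0 := fun j => by
    by_contra h
    have h6 := (h2 _ h).symm
    have h7 := congrArg (D.co r ⬝ᵥ ·) h6
    simp only [dotProduct_sub, dotProduct_smul, ← A.eq_1, G.A_self, W, Sum.elim_inl, Pi.zero_apply,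
      dotProduct_zero, smul_eq_mul] at h7 h6
    rw [show D.A r s = 0 by omega, zero_smul, sub_zero] at h6
    exact G.wt_ne s h6
  obtain j | u := b
  · exact (hb (h5 j)).elim
  have h6 : v = v (.inr u) • e (.inr u) := by
    ext (j | u')
    · simp [h5]
    · by_cases h : u' = u
      · simp [h]
      · simpa [h] using not_not.1 (mt (h2 (.inr u')) fun h7 => h (G.wt_inj (h7.trans (h2 _ hb).symm)))
  refine ⟨u, h2 _ hb, v (.inr u), ?_, h6⟩
  rw [h6, mulVec_smul] at h1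
  exact IsUnit.of_mul_eq_one _ (by simpa using congrFun h1 (.inr s))

theorem wt_σ (r s : Φ) : D.wt (D.σ r s) = D.wt s - D.A r s • D.wt r := by
  have h := (G.exists_col r s).imp fun _ h => h.1
  rw [σ, dif_pos h]
  exact h.choose_spec

theorem nM_conj (r s : Φ) : ∃ η : ℤ, IsUnit η ∧ D.nM R r *ᵥ e (.inr s) =
    (η : R) • e (.inr (D.σ r s)) ∧ ∀ a : R, D.nM R r * D.X s a = D.X (D.σ r s) (η * a) * D.nM R r := by
  obtain ⟨u, hu, η, h1, h2⟩ := G.exists_col r s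
  obtain rfl : u = D.σ r s := G.wt_inj (hu.trans (G.wt_σ r s).symm)
  refine ⟨η, h1, nM_cast h2, fun a => ?_⟩
  have h4 : ∀ (R : Type) [CommRing R] [IsDomain R] [CharZero R] (a : R),
      D.nM R r * D.X s a = D.X (D.σ r s) (η * a) * D.nM R r := fun R _ _ _ a => by
    have h4 := (((G.aut_X (R := R) r 1).mul (G.aut_X (D.neg r) (-1))).mul (G.aut_X r 1)) (e (.inr s))
    rw [← nM, nM_cast h2, map_smul, ad_inr, ad_inr, smul_mul_assoc] at h4
    refine smul_right_injective _ (show (6 : R) ≠ 0 by norm_num) ?_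
    simp only [← mul_smul_comm, ← smul_mul_assoc (6 : R) (D.X _ _), G.six_X]
    simp only [mul_add, add_mul, mul_smul_comm, smul_mul_assoc, ← mul_assoc, h4, mul_one, one_mul]
    simp only [mul_assoc, h4, mul_smul_comm]
    simp only [← mul_assoc (D.nM R r), h4, smul_mul_assoc, mul_smul_comm, mul_assoc]
    module
  obtain ⟨φ, a, -, rfl, -⟩ := exists_lift a a
  rw [← map_nM φ, ← map_X, ← map_mul, h4, map_mul, map_X, map_mul, map_intCast]

theorem A_σ (r u s : Φ) : D.A u (D.σ r s) = D.A u s - D.A r s * D.A u r := by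
  rw [A, G.wt_σ, dotProduct_sub, dotProduct_smul, smul_eq_mul, ← A, ← A]

theorem ht_σ (r s : Φ) : D.ht (D.σ r s) = D.ht s - D.A r s * D.ht r := by
  rw [ht, G.wt_σ, dotProduct_sub, dotProduct_smul, smul_eq_mul, ← ht, ← ht]

theorem σ_σ (r s : Φ) : D.σ r (D.σ r s) = s :=
  G.ht_inj (by rw [G.ht_σ, G.ht_σ, G.A_σ, G.A_self]; ring)

theorem σ_self (r : Φ) : D.σ r r = D.neg r :=
  G.ht_inj (by rw [G.ht_σ, G.A_self, G.ht_neg]; ring)

theorem A_neg_right (r s : Φ) : D.A r (D.neg s) = -D.A r s := by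
  rw [A, G.wt_neg, dotProduct_neg, A]

theorem A_neg_left (r s : Φ) : D.A (D.neg r) s = -D.A r s := by
  rw [A, G.co_neg, neg_dotProduct, A]

theorem len_A (r s : Φ) : D.len r * D.A r s = D.wt r ⬝ᵥ D.B *ᵥ D.wt s := by
  rw [A, ← smul_eq_mul, ← smul_dotProduct, G.co_B, dotProduct_mulVec, ← mulVec_transpose, G.B_symm]

theorem len_A_comm (r s : Φ) : D.len r * D.A r s = D.len s * D.A s r := by
  rw [G.len_A, A, ← smul_eq_mul, ← smul_dotProduct, G.co_B, dotProduct_comm]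

theorem A_σ_σ (r s u : Φ) : D.A (D.σ r s) (D.σ r u) = D.A s u := by
  have h : ∀ s u, D.len (D.σ r s) * D.A (D.σ r s) (D.σ r u) = D.len s * D.A s u := fun s u => by
    rw [G.A_σ, mul_sub, G.len_A_comm, mul_left_comm, G.len_A_comm (D.σ r s), G.A_σ, G.A_σ, G.A_self]
    linear_combination G.len_A_comm u s + D.A r s * G.len_A_comm r u
  have h1 := h s s
  rw [G.A_self, G.A_self] at h1
  exact mul_left_cancel₀ (G.len_pos s).ne' (by rw [← h, show D.len (D.σ r s) = D.len s by omega])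

theorem A_pos_comm {r s : Φ} : 0 < D.A r s ↔ 0 < D.A s r := by
  rw [← mul_pos_iff_of_pos_left (G.len_pos r), G.len_A_comm, mul_pos_iff_of_pos_left (G.len_pos s)]

theorem A_zero_comm {r s : Φ} : D.A r s = 0 ↔ D.A s r = 0 := by
  rw [← mul_eq_zero_iff_left (G.len_pos r).ne', G.len_A_comm,
    mul_eq_zero_iff_left (G.len_pos s).ne']

theorem A_p (i : ι) (s : Φ) : D.A (D.p i) s = D.wt s i := by simp [A, G.co_p]

/-- The reflection as a permutation of the roots. -/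
noncomputable def sg (r : Φ) : Equiv.Perm Φ := Function.Involutive.toPerm (D.σ r) (G.σ_σ r)

theorem sg_apply (r s : Φ) : G.sg r s = D.σ r s := rfl

theorem sg_inv (r : Φ) : (G.sg r)⁻¹ = G.sg r := rfl

/-- The Weyl group. -/
noncomputable def Wg : Subgroup (Equiv.Perm Φ) := Subgroup.closure (Set.range G.sg)

theorem sg_mem (r : Φ) : G.sg r ∈ G.Wg := Subgroup.subset_closure ⟨r, rfl⟩

theorem Wg_ind {P : Equiv.Perm Φ → Prop} (h1 : P 1) (h : ∀ r w, w ∈ G.Wg → P w → P (G.sg r * w))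
    {w : Equiv.Perm Φ} (hw : w ∈ G.Wg) : P w := by
  induction hw using Subgroup.closure_induction_left with
  | one => exact h1
  | mul_left x hx y hy ih => obtain ⟨r, rfl⟩ := hx; exact h r y hy ih
  | inv_mul_cancel x hx y hy ih => obtain ⟨r, rfl⟩ := hx; exact h r y hy ih

variable {G} {w : Equiv.Perm Φ}

theorem W_lin (hw : w ∈ G.Wg) : ∃ L : (ι → ℤ) →+ (ι → ℤ), ∀ r, D.wt (w r) = L (D.wt r) := by
  refine G.Wg_ind (P := fun w => ∃ L : (ι → ℤ) →+ (ι → ℤ), ∀ r, D.wt (w r) = L (D.wt r))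
    ⟨AddMonoidHom.id _, fun _ => rfl⟩ ?_ hw
  rintro r w - ⟨L, h⟩
  refine ⟨AddMonoidHom.mk' (fun μ => L μ - (D.co r ⬝ᵥ L μ) • D.wt r) fun μ ν => ?_, fun s => ?_⟩
  · rw [map_add, dotProduct_add]; module
  · rw [Equiv.Perm.mul_apply, sg_apply, G.wt_σ, A, h]; rfl

theorem A_W (hw : w ∈ G.Wg) (r s : Φ) : D.A (w r) (w s) = D.A r s :=
  G.Wg_ind (P := fun w => D.A (w r) (w s) = D.A r s) rfl
    (fun u _ _ h => (G.A_σ_σ u _ _).trans h) hw

theorem W_neg (hw : w ∈ G.Wg) (r : Φ) : w (D.neg r) = D.neg (w r) := by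
  obtain ⟨L, h⟩ := W_lin hw
  exact G.wt_inj (by rw [h, G.wt_neg, G.wt_neg, map_neg, h])

theorem W_σ (hw : w ∈ G.Wg) (r s : Φ) : w (D.σ r s) = D.σ (w r) (w s) := by
  obtain ⟨L, h⟩ := W_lin hw
  exact G.wt_inj (by rw [h, G.wt_σ, G.wt_σ, map_sub, map_zsmul, A_W hw, h, h])

theorem ht_W_σ (hw : w ∈ G.Wg) (r s : Φ) :
    D.ht (w (D.σ r s)) = D.ht (w s) - D.A r s * D.ht (w r) := by
  rw [W_σ hw, G.ht_σ, A_W hw]

end Good
end RD
end CfsgLib.Chev
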