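import Cfsg.Agent.Lib.Chev.Stmt
import Cfsg.Agent.Lib.SL2Card
import Cfsg.Agent.Lib.CoreBasic

/-! Pairs of commuting `SL₂` subgroups. -/

set_option autoImplicit false

namespace CfsgLib.Chev
open Matrix Subgroup MatrixGroups

variable {F : Type*} [Field F]

theorem mk2_neg_one : mk2 (-1 : F) 0 0 (-1) (by simp) = -1 := by
  ext i j; fin_cases i <;> fin_cases j <;> simp [mk2]

theorem mk2_inj {a b c d a' b' c' d' : F} {h h'} (H : mk2 a b c d h = mk2 a' b' c' d' h') :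
    a = a' ∧ b = b' ∧ c = c' ∧ d = d' :=
  have := congrArg (fun g : SL(2, F) => g.1) H
  ⟨congrFun (congrFun this 0) 0, congrFun (congrFun this 0) 1, congrFun (congrFun this 1) 0,
    congrFun (congrFun this 1) 1⟩

theorem eq_of_central {A : SL(2, F)} (h : ∀ B, A * B = B * A) : A = 1 ∨ A = -1 := by
  induction A using mk2_ind with | _ a b c d H
  have h1 := h (mk2 1 1 0 1 (by simp))
  have h2 := h (mk2 1 0 1 1 (by simp))
  rw [mk2_mul, mk2_mul] at h1 h2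
  obtain ⟨h3, h4, -⟩ := mk2_inj h1
  obtain ⟨h5, -⟩ := mk2_inj h2
  obtain rfl : c = 0 := by linear_combination -h3
  obtain rfl : b = 0 := by linear_combination h5
  obtain rfl : a = d := by linear_combination h4
  exact (mul_self_eq_one_iff.1 (by linear_combination H : a * a = 1)).imp
    (fun h => (mk2_congr h rfl rfl h).trans mk2_one) fun h => (mk2_congr h rfl rfl h).trans mk2_neg_one

theorem sl2_pair [Finite F] {Γ : Type*} [Group Γ] {φ ψ : SL(2, F) →* Γ} (hφ : Function.Injective φ)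
    (hψ : Function.Injective ψ) (hc : ∀ A B, φ A * ψ B = ψ B * φ A) {t : Γ} (h1 : φ (-1) = t)
    (h2 : ψ (-1) = t) (ht : orderOf t = 2)
    (h3 : Nat.card (centralizer {t}) = Nat.card F ^ 2 * (Nat.card F ^ 2 - 1) ^ 2) :
    ∃ L₁ L₂ : Subgroup Γ, Nonempty (L₁ ≃* SL(2, F)) ∧ Nonempty (L₂ ≃* SL(2, F)) ∧
      (∀ x ∈ L₁, ∀ y ∈ L₂, x * y = y * x) ∧ L₁ ⊓ L₂ = zpowers t ∧ L₁ ⊔ L₂ ≤ centralizer {t} ∧
      (L₁ ⊔ L₂).relIndex (centralizer {t}) = 2 := by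
  have h4 : ∀ x ∈ φ.range, ∀ y ∈ ψ.range, x * y = y * x := by
    rintro _ ⟨A, rfl⟩ _ ⟨B, rfl⟩; exact hc A B
  have h5 : φ.range ⊓ ψ.range = zpowers t := by
    refine le_antisymm ?_ (zpowers_le.2 ⟨⟨_, h1⟩, ⟨_, h2⟩⟩)
    rintro _ ⟨⟨A, rfl⟩, B, hB⟩
    rcases eq_of_central (A := A) fun C => hφ (by rw [map_mul, map_mul, ← hB, hc]) with rfl | rfl
    · rw [map_one]; exact one_mem _
    · exact h1 ▸ mem_zpowers _
  have h6 : φ.range ⊔ ψ.range ≤ centralizer {t} := sup_le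
    (fun x hx => mem_centralizer_singleton_iff.2 (h4 x hx t ⟨_, h2⟩))
    fun x hx => mem_centralizer_singleton_iff.2 (h4 t ⟨_, h1⟩ x hx).symm
  refine ⟨_, _, ⟨(MonoidHom.ofInjective hφ).symm⟩, ⟨(MonoidHom.ofInjective hψ).symm⟩, h4, h5, h6, ?_⟩
  have h7 := CfsgLib.card_sup_mul_card_inf (H := φ.range) (N := ψ.range) fun x hx =>
    centralizer_le_normalizer _ fun y hy => (h4 x hx y hy).symm
  have h8 := ((φ.range ⊔ ψ.range).subgroupOf (centralizer {t})).card_mul_index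
  rw [← Nat.card_congr (MonoidHom.ofInjective hφ).toEquiv, h5, Nat.card_zpowers, ht,
    ← Nat.card_congr (MonoidHom.ofInjective hψ).toEquiv, SL2C.card_SL2] at h7
  rw [Nat.card_congr (subgroupOfEquivOfLe h6).toEquiv, h3, ← mul_pow, sq, ← h7] at h8
  refine Nat.eq_of_mul_eq_mul_left (Nat.pos_of_ne_zero fun h => ?_) h8
  rw [h, zero_mul, ← SL2C.card_SL2, ← sq] at h7
  exact (pow_pos Nat.card_pos 2).ne h7

namespace RD.Good
variable {ι Φ : Type} [Fintype ι] [DecidableEq ι] [Fintype Φ] [DecidableEq Φ] {D : RD ι Φ}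
  (G : D.Good)

theorem exists_sl2_inj (h2 : (2 : F) ≠ 0) {r u : Φ} (hr : 0 < D.ht r) (hu : D.A r u = 1) :
    ∃ φ : SL(2, F) →* GL (ι ⊕ Φ) F, Function.Injective φ ∧ (∀ A, φ A ∈ G.G0 F) ∧
      φ (-1) = D.hr r (-1) ∧ ∀ g, (∀ a, Commute (G.x r a) g) → (∀ a, Commute (G.x (D.neg r) a) g) →
        ∀ A, Commute (φ A) g := by
  obtain ⟨φ, h3, h4, h5⟩ := G.exists_sl2 (F := F) r
  have h6 : ∀ a H, φ (mk2 1 a 0 1 H) = G.x r a := fun a H => by simpa using h3 1 a 1 H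
  have h7 : ∀ {a : F} {w c}, G.Mon (G.x r a) w c → a = 0 := fun h => G.x_eq_one (LU h2
    (x_mem_U (mem_Pos.2 hr) _) (one_mem _) (by rwa [mul_one])).1
  refine ⟨φ, (injective_iff_map_eq_one _).2 (mk2_ind fun a b c d H h => ?_),
    mk2_induction (fun a => h6 a _ ▸ G.x_mem _ _) (fun a => h5 a _ ▸ G.x_mem _ _)
      fun A B hA hB => map_mul φ A B ▸ mul_mem hA hB, ?_, fun g h h' =>
    mk2_induction (fun a => h6 a _ ▸ h a) (fun a => h5 a _ ▸ h' a)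
      fun A B hA hB => map_mul φ A B ▸ hA.mul_left hB⟩
  · by_cases hc : c = 0
    · subst hc
      obtain ⟨a, rfl⟩ : ∃ a' : Fˣ, a = a' := ⟨Units.mk0 a (by rintro rfl; simp at H), rfl⟩
      rw [h3] at h
      have h8 := h7 (eq_inv_of_mul_eq_one_left h ▸ (G.mon_hr r a).inv)
      rw [h8, G.x_zero, one_mul] at h
      have h9 := congrFun ((G.mon_hr r a).unique (h ▸ G.mon_one)).2 u
      rw [hu, zpow_one] at h9
      subst h9
      exact (mk2_congr rfl (by simpa using h8) rfl (by simpa using H)).trans mk2_one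
    · obtain ⟨c, rfl⟩ : ∃ c' : Fˣ, c = c' := ⟨Units.mk0 c hc, rfl⟩
      obtain ⟨η, -, h8⟩ := G.mon_n (F := F) r
      have h9 := ((G.mon_hr r (-c⁻¹)).mul h8).inv
      rw [h4, mul_eq_one_comm, mul_assoc (G.x _ _), ← mul_assoc, ← G.x_add] at h
      rw [← eq_inv_of_mul_eq_one_left h] at h9
      have h10 := (h9.unique (by rw [h7 h9, G.x_zero]; exact G.mon_one)).1
      rw [inv_eq_one, one_mul] at h10
      exact (G.neg_ne r (G.σ_self r ▸ DFunLike.congr_fun h10 r)).elim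
  · simpa [G.x_zero, ← mk2_neg_one] using h3 (-1) 0 (-1) (by simp)

theorem x_comm {r s : Φ} (h : D.N r s = 0) (hs : s ≠ D.neg r) (a b : F) :
    Commute (G.x r a) (G.x s b) := Units.ext (G.X_comm h hs a b)

theorem exists_pair (h2 : (2 : F) ≠ 0) {r s u v : Φ} (hr : 0 < D.ht r) (hu : D.A r u = 1)
    (hs : 0 < D.ht s) (hv : D.A s v = 1) (h : r ≠ s) (h3 : D.N r s = 0) (h4 : D.N r (D.neg s) = 0)
    (h5 : D.N (D.neg r) s = 0) (h6 : D.N (D.neg r) (D.neg s) = 0) :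
    ∃ φ ψ : SL(2, F) →* GL (ι ⊕ Φ) F, Function.Injective φ ∧ Function.Injective ψ ∧
      (∀ A, φ A ∈ G.G0 F) ∧ (∀ A, ψ A ∈ G.G0 F) ∧ φ (-1) = D.hr r (-1) ∧ ψ (-1) = D.hr s (-1) ∧
      ∀ A B, φ A * ψ B = ψ B * φ A := by
  obtain ⟨φ, a1, a2, a3, a4⟩ := G.exists_sl2_inj h2 hr hu
  obtain ⟨ψ, b1, b2, b3, b4⟩ := G.exists_sl2_inj h2 hs hv
  have h7 : s ≠ D.neg r := fun h => by rw [h, G.ht_neg] at hs; omega
  refine ⟨φ, ψ, a1, b1, a2, b2, a3, b3, fun A B => a4 _ (fun a => (b4 _ (fun b => ?_) (fun b => ?_)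
    B).symm) (fun a => (b4 _ (fun b => ?_) (fun b => ?_) B).symm) A⟩
  · exact (G.x_comm h3 h7 a b).symm
  · exact (G.x_comm h4 (fun h' => h (by rw [← G.neg_neg r, ← h', G.neg_neg])) a b).symm
  · exact (G.x_comm h5 (by rw [G.neg_neg]; exact h.symm) a b).symm
  · exact (G.x_comm h6 (fun h' => h7 (by rw [← G.neg_neg s, h', G.neg_neg])) a b).symm

end RD.Good
end CfsgLib.Chev
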