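import Cfsg.Agent.Lib.Chev.Check2

/-! Involutions of the Chevalley groups, in the form of the statements. -/

set_option autoImplicit false

namespace CfsgLib.Chev
open Matrix Subgroup Cfsg.Lie

theorem card_cent_coe {Γ : Type*} [Group Γ] (H : Subgroup Γ) (t : H) :
    Nat.card (centralizer {t}) = Nat.card (H ⊓ centralizer {(t : Γ)} : Subgroup Γ) := by
  rw [inf_comm, ← Nat.card_congr (subgroupOfEquivOfLe (inf_le_right (b := H))).toEquiv,
    inf_subgroupOf_right]
  congr 3
  ext x
  simp [mem_centralizer_singleton_iff, mem_subgroupOf, Subtype.ext_iff]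

theorem card_cent_of_isConj {Γ : Type*} [Group Γ] {s t : Γ} (h : IsConj s t) :
    Nat.card (centralizer {s}) = Nat.card (centralizer {t}) := by
  obtain ⟨g, rfl⟩ := isConj_iff.1 h
  refine Nat.card_congr ((MulAut.conj g).toEquiv.subtypeEquiv fun x => ?_)
  simp only [mem_centralizer_singleton_iff, MulEquiv.toEquiv_eq_coe, EquivLike.coe_coe,
    MulAut.conj_apply, conj_mul, mul_left_inj, mul_right_inj]

theorem two_ne_zero_of_odd {F : Type*} [Field F] [Fintype F] (h : Odd (Fintype.card F)) :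
    (2 : F) ≠ 0 := fun h2 => by
  obtain ⟨k, hk⟩ := h
  have := FiniteField.cast_card_eq_zero F
  rw [hk] at this
  push_cast at this
  simp [h2] at this

theorem coprime_pow_sub_one {q k : ℕ} (hq : 1 < q) (hk : k ≠ 0) : (q ^ k - 1).Coprime q :=
  ((Nat.coprime_pow_right_iff (Nat.pos_of_ne_zero hk) _ _).1
    ((Nat.coprime_self_sub_left (Nat.one_le_pow _ _ (by omega))).2 (Nat.coprime_one_left _)))

theorem pow_mul_ne {q a b A B : ℕ} (hq : 1 < q) (h : a < b) (hA : A.Coprime q) :
    q ^ a * A ≠ q ^ b * B := fun h1 => by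
  obtain ⟨c, rfl⟩ := Nat.exists_eq_add_of_lt h
  rw [add_assoc, pow_add, mul_assoc, mul_right_inj' (by positivity), pow_succ', mul_assoc] at h1
  exact hq.ne' ((Nat.coprime_self _).1 (h1 ▸ hA).coprime_mul_right)

namespace FT
variable {D : ChevalleyDatum} {T : FT D} (G : T.rd.Good) (h1 : T.Small)
  (h4 : allN D.nroots T.chk4 = true) (F : Type*) [Field F]

/-- The involution of the torus with a given code. -/
noncomputable def tE (e : ℕ) : D.group F :=
  ⟨T.rd.hT F (RD.sgn F (RD.Good.eps e)), group_eq G h1 h4 F ▸ G.hT_mem _⟩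

variable {F}

theorem orderOf_tE (hF : (2 : F) ≠ 0) {e : ℕ} (i : Fin D.rank) (h : e.testBit i = true) :
    orderOf (tE G h1 h4 F e) = 2 := by
  refine orderOf_eq_prime (Subtype.ext ?_) fun h2 => hF ?_
  · rw [coe_pow, tE, ← map_pow, show RD.sgn F (RD.Good.eps e) ^ 2 = 1 from funext fun i => by
      simp [RD.sgn, sq, ← mul_zpow], map_one, coe_one]
  · have h3 := congrFun (G.hT_injective ((congrArg Subtype.val h2).trans (map_one _).symm)) i
    have : (-1 : F) = 1 := by simpa [RD.sgn, RD.Good.eps, h, Units.ext_iff] using h3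
    linear_combination -this

theorem isConj_tE (h2 : allN D.nroots T.chk2 = true) {M gT rk : ℕ} {L S : List ℕ}
    (h : T.MChk 0 M gT L) (h3 : T.RChk S rk) [Finite F] (hF : (2 : F) ≠ 0) {u : D.group F}
    (hu : orderOf u = 2) : ∃ e ∈ S, IsConj u (tE G h1 h4 F e) := by
  obtain ⟨e, he, g, hg, h5⟩ := invol_class G h1 h2 h h3 hF (t := u) ((group_eq G h1 h4 F).le u.2)
    (by rw [← coe_mul, ← sq, ← hu, pow_orderOf_eq_one, coe_one])
    fun h => by simp [show u = 1 from Subtype.ext h] at hu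
  exact ⟨e, he, isConj_iff.2 ⟨(⟨g, group_eq G h1 h4 F ▸ hg⟩ : D.group F)⁻¹, Subtype.ext h5⟩⟩

theorem card_tE (h2 : allN D.nroots T.chk2 = true)
    {e M gT a : ℕ} {L : List ℕ} {cs : List (ℕ × ℕ × ℕ × List ℕ)} (h : T.MChk e M gT L)
    (h3 : (T.chainChk M cs && Nat.beq (cntN D.nroots fun s => T.ps s && tb M s) a) = true)
    [Fintype F] (hF : (2 : F) ≠ 0) : Nat.card (centralizer {tE G h1 h4 F e}) =
      Fintype.card F ^ a * (Fintype.card F - 1) ^ D.rank *
        (cs.map fun c => (c.2.2.2.map (Fintype.card F ^ ·)).sum).prod := by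
  rw [card_cent_coe, ← Nat.card_eq_fintype_card, ← card_cent G h1 h2 h h3 hF, ← group_eq G h1 h4]
  rfl

end FT
end CfsgLib.Chev
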