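import Cfsg.Agent.Lib.Chev.TE8t

/-! Checks of the packed tables for type E8. -/

set_option autoImplicit false

namespace CfsgLib.Chev
open Cfsg.Lie

theorem chk3E8_0 : ftE8.chk3 0 = true := by decide +kernel

theorem chk3E8_162 : ftE8.chk3 162 = true := by decide +kernel

theorem chk3E8_141 : ftE8.chk3 141 = true := by decide +kernel

end CfsgLib.Chev
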