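import Cfsg.Agent.Lib.Chev.TE8t

/-! Checks of the packed tables for type E8. -/

set_option autoImplicit false

namespace CfsgLib.Chev
open Cfsg.Lie

theorem chk3E8_123 : ftE8.chk3 123 = true := by decide +kernel

theorem chk3E8_121 : ftE8.chk3 121 = true := by decide +kernel

theorem chk3E8_120 : ftE8.chk3 120 = true := by decide +kernel

end CfsgLib.Chev
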