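import Cfsg.Agent.Lib.Chev.TE8a
import Cfsg.Agent.Lib.Chev.TE8b
import Cfsg.Agent.Lib.Chev.TE8c
import Cfsg.Agent.Lib.Chev.TE8d

/-! The packed tables for type E8 are good. -/

set_option autoImplicit false

namespace CfsgLib.Chev
open Cfsg.Lie

theorem goodE8 : ftE8.rd.Good :=
  FT.good smallE8 chk2E8 chk3E8_0 fun i => by
    fin_cases i
    exacts [chk3E8_162, chk3E8_141, chk3E8_135, chk3E8_130, chk3E8_126, chk3E8_123, chk3E8_121, chk3E8_120]

end CfsgLib.Chev
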