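import Cfsg.Agent.Lib.Chev.TE8t

/-! Checks of the packed tables for type E8. -/

set_option autoImplicit false

namespace CfsgLib.Chev
open Cfsg.Lie

theorem smallE8 : ftE8.Small := by decide +kernel

theorem chk2E8 : allN chevE8.nroots ftE8.chk2 = true := by decide +kernel

theorem chk4E8 : allN chevE8.nroots ftE8.chk4 = true := by decide +kernel

end CfsgLib.Chev
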