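import Cfsg.Agent.Lib.Chev.Invol

/-! Poincaré sums of reflection subgroups, computed along a chain of stabilizers. -/

set_option autoImplicit false

namespace CfsgLib.Chev
open Matrix hiding zpow_add zpow_add_one zpow_mul zpow_neg inv_zpow'
open Subgroup Finset

namespace RD
variable {ι Φ : Type} [Fintype ι] [DecidableEq ι] [Fintype Φ] [DecidableEq Φ] {D : RD ι Φ}
  {F : Type*} [Field F]

variable (D) in
open Classical in
/-- The Poincaré sum. -/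
noncomputable def Pc (q : ℕ) (Ψ : Finset Φ) (K : Subgroup (Equiv.Perm Φ)) : ℕ :=
  ∑ w : Equiv.Perm Φ with w ∈ K, q ^ D.ell Ψ w

variable (D) in
/-- The roots on which the involution with exponent vector `ε` is trivial. -/
def Ps (ε : ι → ℤ) : Finset Φ := univ.filter fun r => Even (ε ⬝ᵥ D.wt r)

variable (F) in
/-- The involution with exponent vector `ε`. -/
def sgn (ε : ι → ℤ) : ι → Fˣ := fun i => (-1) ^ ε i

omit [DecidableEq ι] in
theorem ch_sgn (ε μ : ι → ℤ) : ch (sgn F ε) μ = if Even (ε ⬝ᵥ μ) then 1 else -1 := by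
  rw [show sgn F ε = fun i => (-1) ^ ε i from rfl, ch_pow]
  split_ifs with h
  · exact h.neg_one_zpow
  · exact (Int.not_even_iff_odd.1 h).neg_one_zpow

omit [Fintype ι] [DecidableEq ι] in
theorem sgn_congr {ε ε' : ι → ℤ} (h : ∀ i, Even (ε i - ε' i)) : sgn F ε = sgn F ε' :=
  funext fun i => by rw [sgn, sgn, ← sub_add_cancel (ε i) (ε' i), zpow_add, (h i).neg_one_zpow, one_mul]

namespace Good
variable (G : D.Good)

/-- A reflection subgroup with its root subsystem. -/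
structure Stage (K : Subgroup (Equiv.Perm Φ)) (Ψ : Finset Φ) : Prop where
  le : K ≤ G.Wg
  sg_mem : ∀ α ∈ Ψ, G.sg α ∈ K
  inv : ∀ w ∈ K, ∀ r ∈ Ψ, w r ∈ Ψ
  pin : ∀ w ∈ K, (∀ r ∈ Ψ, 0 < D.ht r → 0 < D.ht (w r)) → w = 1

/-- The stabilizer in the Weyl group of an involution of the torus. -/
def K0 (ε : ι → ℤ) : Subgroup (Equiv.Perm Φ) where
  carrier := {w | w ∈ G.Wg ∧ ∀ s, w s ∈ D.Ps ε ↔ s ∈ D.Ps ε}
  mul_mem' h h' := ⟨mul_mem h.1 h'.1, fun s => (h.2 _).trans (h'.2 s)⟩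
  one_mem' := ⟨one_mem _, fun _ => Iff.rfl⟩
  inv_mem' {w} h := ⟨inv_mem h.1, fun s => by simpa using (h.2 (w⁻¹ s)).symm⟩

variable {G} {K : Subgroup (Equiv.Perm Φ)} {Ψ O : Finset Φ} {w : Equiv.Perm Φ} {lam : Φ}

theorem Stage.σ_mem (h : G.Stage K Ψ) {α r : Φ} (hα : α ∈ Ψ) (hr : r ∈ Ψ) : D.σ α r ∈ Ψ :=
  h.inv _ (h.sg_mem α hα) r hr

theorem Stage.neg_mem (h : G.Stage K Ψ) {r : Φ} (hr : r ∈ Ψ) : D.neg r ∈ Ψ :=
  G.σ_self r ▸ h.σ_mem hr hr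

theorem Stage.ind (h : G.Stage K Ψ) {K' : Set (Equiv.Perm Φ)} (hK : K' ⊆ G.Wg)
    (hK' : ∀ w ∈ K', ∀ α ∈ Ψ, w * G.sg α ∈ K') {P : Equiv.Perm Φ → Prop}
    (h1 : ∀ w ∈ K', (∀ r ∈ Ψ, 0 < D.ht r → 0 < D.ht (w r)) → P w)
    (h2 : ∀ w, ∀ α ∈ Ψ, P (w * G.sg α) → P w) (hw : w ∈ K') : P w := by
  induction hl : D.ell Ψ w using Nat.strong_induction_on generalizing w with | _ l ih
  by_cases h3 : ∀ r ∈ Ψ, 0 < D.ht r → 0 < D.ht (w r)
  · exact h1 w hw h3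
  obtain ⟨r, hr, h4, h5⟩ := by simpa only [not_forall, not_lt] using h3
  exact h2 w r hr (ih _ (hl ▸ ell_lt (hK hw) hr (fun s => h.σ_mem hr) h4 (h5.lt_of_ne (G.ht_ne _)))
    (hK' w hw r hr) rfl)

theorem Stage.pc_empty (h : G.Stage K ∅) (q : ℕ) : D.Pc q ∅ K = 1 := by
  classical
  rw [Pc, sum_eq_single_of_mem 1 (by simp) fun w hw h' => (h' (h.pin w (by simpa using hw) (by simp))).elim]
  rw [ell, filter_empty, card_empty, pow_zero]

theorem Stage.pos (h : G.Stage K Ψ) (hd : ∀ α ∈ Ψ, 0 < D.ht α → 0 ≤ D.A α lam) {r : Φ} (hr : r ∈ Ψ)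
    (h1 : 0 < D.A r lam) : 0 < D.ht r :=
  (G.ht_ne r).lt_or_gt.resolve_left fun h2 => by
    linarith [hd _ (h.neg_mem hr) (by rwa [G.ht_neg, neg_pos]), G.A_neg_left r lam]

theorem Stage.next (h : G.Stage K Ψ) (hd : ∀ α ∈ Ψ, 0 < D.ht α → 0 ≤ D.A α lam) :
    G.Stage (K ⊓ MulAction.stabilizer _ lam) (Ψ.filter fun α => D.A α lam = 0) where
  le := inf_le_left.trans h.le
  sg_mem α hα := ⟨h.sg_mem α (mem_filter.1 hα).1, G.ht_inj (by
    rw [Equiv.Perm.smul_def, sg_apply, G.ht_σ, (mem_filter.1 hα).2, zero_mul, sub_zero])⟩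
  inv w hw r hr := mem_filter.2 ⟨h.inv w hw.1 r (mem_filter.1 hr).1, by
    rw [← show w lam = lam from hw.2, A_W (h.le hw.1), (mem_filter.1 hr).2]⟩
  pin w hw h1 := h.pin w hw.1 fun r hr h2 => (hd r hr h2).eq_or_lt.elim
    (fun h3 => h1 r (mem_filter.2 ⟨hr, h3.symm⟩) h2) fun h3 => h.pos hd (h.inv w hw.1 r hr) (by
      rwa [← show w lam = lam from hw.2, A_W (h.le hw.1)])

theorem Stage.step (h : G.Stage K Ψ) (hd : ∀ α ∈ Ψ, 0 < D.ht α → 0 ≤ D.A α lam) (hO : lam ∈ O)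
    (hc : ∀ α ∈ Ψ, ∀ μ ∈ O, D.σ α μ ∈ O)
    (hu : ∀ μ ∈ O, μ ≠ lam → ∃ α ∈ Ψ, 0 < D.ht α ∧ D.A α μ < 0) (q : ℕ) :
    D.Pc q Ψ K = (∑ μ ∈ O, q ^ #(Ψ.filter fun α => 0 < D.ht α ∧ D.A α μ < 0)) *
      D.Pc q (Ψ.filter fun α => D.A α lam = 0) (K ⊓ MulAction.stabilizer _ lam) := by
  classical
  have h' := h.next hd
  have h1 : ∀ w ∈ K, ∀ μ ∈ O, w μ ∈ O := fun w hw => h.ind (K' := K) (P := fun w => ∀ μ ∈ O, w μ ∈ O) h.le
    (fun w hw α hα => mul_mem hw (h.sg_mem α hα)) (fun w hw h1 => by simp [h.pin w hw h1])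
    (fun w α hα h1 μ hμ => by simpa [sg_apply, G.σ_σ] using h1 _ (hc α hα μ hμ)) hw
  have h2 : ∀ μ, D.neg μ ∈ O → ∃ w ∈ K, w lam = D.neg μ := fun μ => by
    induction μ using ht_ind (D := D) with | _ μ ih
    intro hμ
    by_cases h3 : D.neg μ = lam
    · exact ⟨1, one_mem _, h3.symm⟩
    obtain ⟨α, hα, h4, h5⟩ := hu _ hμ h3
    obtain ⟨w, hw, h6⟩ := ih (D.neg (D.σ α (D.neg μ))) (by
      rw [G.ht_neg, G.ht_σ, G.ht_neg]; nlinarith) (by rw [G.neg_neg]; exact hc α hα _ hμ)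
    exact ⟨_, mul_mem (h.sg_mem α hα) hw, by
      rw [Equiv.Perm.mul_apply, h6, G.neg_neg, sg_apply, G.σ_σ]⟩
  rw [Pc, ← sum_fiberwise_of_maps_to (g := fun w => w lam) (t := O)
    fun w hw => h1 w (mem_filter.1 hw).2 _ hO, sum_mul]
  refine sum_congr rfl fun μ hμ => ?_
  obtain ⟨w, hw, h3, h4⟩ : ∃ w ∈ K, w lam = μ ∧
      ∀ r ∈ Ψ.filter fun α => D.A α lam = 0, 0 < D.ht r → 0 < D.ht (w r) := by
    obtain ⟨w, hw⟩ := h2 (D.neg μ) (by rwa [G.neg_neg])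
    rw [G.neg_neg] at hw
    exact h'.ind (K' := {w | w ∈ K ∧ w lam = μ}) (P := fun _ => ∃ w ∈ K, w lam = μ ∧
      ∀ r ∈ Ψ.filter fun α => D.A α lam = 0, 0 < D.ht r → 0 < D.ht (w r)) (fun w h1 => h.le h1.1) (fun w hw α hα =>
      ⟨mul_mem hw.1 (h'.sg_mem α hα).1, (congrArg w (h'.sg_mem α hα).2).trans hw.2⟩)
      (fun w h1 h2 => ⟨w, h1.1, h1.2, h2⟩) (fun _ _ _ h => h) hw
  rw [Pc, mul_sum]
  refine (sum_nbij' (w * ·) (w⁻¹ * ·) (fun v hv => ?_) (fun v hv => ?_) (by simp) (by simp)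
    fun v hv => ?_).symm
  · simp only [mem_filter, mem_univ, true_and] at hv ⊢
    exact ⟨mul_mem hw hv.1, (congrArg w hv.2).trans h3⟩
  · simp only [mem_filter, mem_univ, true_and] at hv ⊢
    exact ⟨K.mul_mem (K.inv_mem hw) hv.1, Equiv.Perm.inv_eq_iff_eq.2 (hv.2.trans h3.symm)⟩
  replace hv := (mem_filter.1 hv).2
  have h5 : (w * v) lam = μ := (congrArg w hv.2).trans h3
  have h6 := mul_mem hw hv.1
  rw [← pow_add, ell, ell, ← card_filter_add_card_filter_not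
    (s := Ψ.filter fun r => 0 < D.ht r ∧ D.ht ((w * v) r) < 0) fun α => D.A α lam = 0, add_comm,
    filter_comm (fun r => 0 < D.ht r ∧ D.ht ((w * v) r) < 0)]
  congr 2
  · refine congrArg card (filter_congr fun r hr => and_congr_right fun _ => ?_)
    have h7 := h'.inv v hv r hr
    have h8 := h4 _ (h'.neg_mem h7)
    rw [W_neg (h.le hw), G.ht_neg, G.ht_neg] at h8
    have := h4 _ h7
    have := G.ht_ne (v r)
    rw [Equiv.Perm.mul_apply]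
    omega
  · generalize w * v = u at h5 h6
    refine card_nbij' (fun α => u⁻¹ (D.neg α)) (fun r => D.neg (u r)) (fun α hα => ?_)
      (fun r hr => ?_) (fun α _ => by simp [G.neg_neg]) fun α _ => by simp [G.neg_neg]
    · obtain ⟨h7, h8, h9⟩ := mem_filter.1 hα
      have h10 : 0 < D.A (u⁻¹ (D.neg α)) lam := by
        rwa [← A_W (h.le h6), h5, Equiv.Perm.inv_def, Equiv.apply_symm_apply, G.A_neg_left, neg_pos]
      have h11 := h.inv _ (inv_mem h6) _ (h.neg_mem h7)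
      exact mem_filter.2 ⟨mem_filter.2 ⟨h11, h.pos hd h11 h10, by simpa [G.ht_neg]⟩, h10.ne'⟩
    · obtain ⟨h7, h8⟩ := mem_filter.1 hr
      obtain ⟨h7, h9, h10⟩ := mem_filter.1 h7
      refine mem_filter.2 ⟨h.neg_mem (h.inv _ h6 _ h7), by rwa [G.ht_neg, neg_pos], ?_⟩
      rw [G.A_neg_left, ← h5, A_W (h.le h6), neg_lt_zero]
      exact (hd r h7 h9).lt_of_ne' h8

theorem eq_one_of_simple (hw : w ∈ G.Wg) (h : ∀ i, w (D.p i) = D.p i) : w = 1 :=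
  Equiv.ext (G.root_ind h (fun s hs => (W_neg hw s).trans (congrArg _ hs)) fun i s hs => by
    rw [W_σ hw, h, hs]; rfl)

theorem sum_A_inv {S : Finset Φ} (hw : w ∈ G.Wg) (h : ∀ r ∈ S, w r ∈ S) (r : Φ) :
    ∑ s ∈ S, D.A s (w r) = ∑ s ∈ S, D.A s r := by
  rw [← sum_congr rfl fun s _ => A_W hw s r]
  exact (sum_nbij w h w.injective.injOn (surjOn_of_injOn_of_card_le w h w.injective.injOn le_rfl)
    fun _ _ => rfl).symm

theorem stage_K0 {ε : ι → ℤ} (h : ∀ w ∈ G.Wg, (∀ s, w s ∈ D.Ps ε ↔ s ∈ D.Ps ε) →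
    (∀ r, ∑ s ∈ D.Pos ∩ D.Ps ε, D.A s (w r) = ∑ s ∈ D.Pos ∩ D.Ps ε, D.A s r) →
    ∀ i, w (D.p i) = D.p i) : G.Stage (G.K0 ε) (D.Ps ε) where
  le _ h := h.1
  sg_mem α hα := ⟨G.sg_mem α, fun s => by
    simp only [Ps, mem_filter, mem_univ, true_and, sg_apply, G.wt_σ, dotProduct_sub,
      dotProduct_smul, smul_eq_mul] at hα ⊢
    simp [Int.even_sub, hα.mul_left]⟩
  inv w hw r hr := (hw.2 r).2 hr
  pin w hw h1 := eq_one_of_simple hw.1 (h w hw.1 hw.2 (sum_A_inv hw.1 fun r hr => mem_inter.2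
    ⟨mem_Pos.2 (h1 r (mem_inter.1 hr).2 (mem_Pos.1 (mem_inter.1 hr).1)),
      (hw.2 r).2 (mem_inter.1 hr).2⟩))

theorem Stage.pin_zero (h : G.Stage (G.K0 0) (D.Ps 0)) (w : Equiv.Perm Φ) (hw : w ∈ G.Wg)
    (h1 : ∀ r, 0 < D.ht r → 0 < D.ht (w r)) : w = 1 :=
  h.pin w ⟨hw, by simp [Ps]⟩ fun r _ => h1 r

variable (G)

theorem card_cent [Finite F] (h2 : (2 : F) ≠ 0) (ε : ι → ℤ) :
    Nat.card (G.G0 F ⊓ centralizer {D.hT F (sgn F ε)} : Subgroup _) =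
      Nat.card F ^ #(D.Pos ∩ D.Ps ε) * (Nat.card F - 1) ^ Fintype.card ι *
        D.Pc (Nat.card F) (D.Ps ε) (G.K0 ε) := by
  have h1 : (-1 : Fˣ) ≠ 1 := fun h => h2 (by
    have : (-1 : F) = 1 := congrArg Units.val h
    linear_combination -this)
  have h3 : ∀ r, ch (sgn F ε) (D.wt r) = 1 ↔ r ∈ D.Ps ε := fun r => by simp [ch_sgn, h1, Ps]
  rw [card_centralizer h2, Pc]
  simp only [h3, filter_mem_eq_inter]
  congr 1
  refine sum_congr (Finset.ext fun w => ?_) fun w _ => ?_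
  · classical
    rw [mem_filter, mem_filter]
    refine and_congr_right fun _ => and_congr_right fun _ => forall_congr' fun s => ?_
    simp only [ch_sgn, Ps, mem_filter, mem_univ, true_and]
    split_ifs with h4 h5 h5 <;> simp [h4, h5, h1, h1.symm]
  · congr 2
    ext r
    simp [Sm, mem_Pos, and_comm]

theorem sgn_conj (ε : ι → ℤ) (i : ι) : (G.n (D.p i))⁻¹ * D.hT F (sgn F ε) * G.n (D.p i) =
    D.hT F (sgn F (ε - Pi.single i (ε ⬝ᵥ D.wt (D.p i)))) := by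
  obtain ⟨η, -, h⟩ := G.mon_n (F := F) (D.p i)
  refine ((h.inv.mul (G.mon_hT _)).mul h).ext (G.mon_hT _) (by simp) fun s => ?_
  simp only [ch_sgn, sg_inv, Equiv.Perm.one_apply, sg_apply, G.σ_σ, G.wt_σ, G.A_p, dotProduct_sub,
    sub_dotProduct, single_dotProduct, dotProduct_smul, smul_eq_mul, inv_mul_cancel_comm,
    mul_comm (D.wt s i)]

/-- The exponent vector with given binary digits. -/
def eps {l : ℕ} (e : ℕ) : Fin l → ℤ := fun i => if e.testBit i then 1 else 0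

theorem invol_class {l : ℕ} {D : RD (Fin l) Φ} {G : D.Good} [Finite F] (h2 : (2 : F) ≠ 0)
    (h0 : G.Stage (G.K0 0) (D.Ps 0)) {S : List ℕ} {rk : ℕ → ℕ} (h : ∀ e : Fin (2 ^ l), e.1 = 0 ∨
      e.1 ∈ S ∨ ∃ i : Fin l, rk (e ^^^ 2 ^ i.1) < rk e ∧ (eps e ⬝ᵥ D.wt (D.p i)) % 2 = 1)
    {t : GL (Fin l ⊕ Φ) F} (ht : t ∈ G.G0 F) (ht2 : t * t = 1) (ht1 : t ≠ 1) :
    ∃ e ∈ S, ∃ g ∈ G.G0 F, g⁻¹ * t * g = D.hT F (sgn F (eps e)) := by
  classical
  obtain ⟨g, hg, χ, h1⟩ := invol_conj h2 h0.pin_zero ht ht2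
  obtain ⟨e, he, rfl⟩ : ∃ e < 2 ^ l, χ = sgn F (eps e) := by
    refine ⟨_, Nat.ofBits_lt_two_pow fun i => decide (χ i = -1), funext fun i => ?_⟩
    have h3 : χ * χ = 1 := G.hT_injective (by
      rw [map_mul, ← h1, map_one, ← inv_inv g, inv_inv g⁻¹, conj_mul, ht2]; simp)
    simp only [sgn, eps, Nat.testBit_ofBits_lt _ _ i.2, decide_eq_true_eq]
    split_ifs with h4
    · simp [h4]
    · exact (Units.ext ((mul_self_eq_one_iff.1 (congrArg Units.val (congrFun h3 i))).resolve_right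
        fun h5 => h4 (Units.ext h5)) : χ i = 1).trans (zpow_zero _).symm
  induction hk : rk e using Nat.strong_induction_on generalizing e g with | _ k ih
  rcases h ⟨e, he⟩ with rfl | h3 | ⟨i, h3, h4⟩
  · refine (ht1 ?_).elim
    rwa [show sgn F (eps 0 : Fin l → ℤ) = 1 from funext fun i => by simp [sgn, eps], map_one,
      ← inv_inv g, inv_inv g⁻¹, conj_eq_one_iff] at h1
  · exact ⟨e, h3, g, hg, h1⟩
  refine ih _ (hk ▸ h3) (g * G.n (D.p i)) (mul_mem hg (G.n_mem _)) _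
    (Nat.xor_lt_two_pow he (Nat.pow_lt_pow_right one_lt_two i.2)) ?_ rfl
  rw [_root_.mul_inv_rev, mul_assoc, mul_assoc, ← mul_assoc t, ← mul_assoc g⁻¹, ← mul_assoc g⁻¹, h1,
    ← mul_assoc, G.sgn_conj]
  refine congrArg _ (sgn_congr fun j => ?_)
  simp only [eps, Pi.sub_apply, Pi.single_apply, Nat.testBit_xor, Nat.testBit_two_pow, Fin.val_inj,
    Int.even_iff] at h4 ⊢
  by_cases h5 : i = j <;> cases e.testBit j <;> simp [h5, eq_comm (a := j)] at h4 ⊢ <;> omega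

end Good
end RD
end CfsgLib.Chev
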